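import Cfsg.Agent.H856.Sv8

/-!
# `Sp₆(2)` in dimension 7: the entries are in the prime field (conclusion)
-/

set_option autoImplicit false
set_option linter.unusedSectionVars false

open scoped Pointwise

namespace Cfsg.Agent.H856.Sv

open Equiv Cfsg.Agent.H856.SpS

variable {F : Type*} [Field F] {V : Type*} [AddCommGroup V] [Module F V]

theorem commA1 : ∑ i ∈ B4, dl ((A1 : Perm (Fin 8)) i) = ∑ i ∈ B4, dl i := by decide +kernel
theorem commA2 : ∑ i ∈ B4, dl ((A2 : Perm (Fin 8)) i) = ∑ i ∈ B4, dl i := by decide +kernel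
theorem commC1 : ∑ i ∈ B4, dl ((C1 : Perm (Fin 8)) i) = ∑ i ∈ B4, dl i := by decide +kernel
theorem commD1 : ∑ i ∈ B4, dl ((D1 : Perm (Fin 8)) i) = ∑ i ∈ B4, dl i := by decide +kernel
theorem commD2 : ∑ i ∈ B4, dl ((D2 : Perm (Fin 8)) i) = ∑ i ∈ B4, dl i := by decide +kernel
theorem commE2 : ∑ i ∈ B4, dl ((E2 : Perm (Fin 8)) i) = ∑ i ∈ B4, dl i := by decide +kernel

/-- **`Sp₆(2)` in dimension 7** -/
theorem sp6_main (h7 : Module.finrank F V = 7) (h2 : (2 : F) ≠ 0) (τ : G6 →* (V ≃ₗ[F] V))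
    (hne : ¬ ∀ g g', τ g * τ g' = τ g' * τ g) :
    ∃ b : Module.Basis (Fin 7) F V, ∀ g j, τ g (b j) ∈ pspan b := by
  let τ8 : alternatingGroup (Fin 8) →* (V ≃ₗ[F] V) := (τ.comp phi).comp (alternatingGroup (Fin 8)).subtype
  have ht8 : ∀ g : alternatingGroup (Fin 8), τ8 g = τ (phi (g : Perm (Fin 8))) := fun g => rfl
  rcases a8_cases h7 h2 τ8 with ⟨w, hw, hfix⟩ | ⟨u, hu, hτ⟩
  · exfalso
    have h1 := a8_no_fix h7 h2 τ8 hw hfix
    have h3 : (Subgroup.zpowers (τ tB)).comap τ = ⊤ := by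
      apply gen
      · intro g
        rw [Subgroup.mem_comap, ← ht8, h1]
        exact Subgroup.one_mem _
      · rw [Subgroup.mem_comap]
        exact Subgroup.mem_zpowers _
    apply hne
    intro g g'
    have h4 : g ∈ (Subgroup.zpowers (τ tB)).comap τ := by rw [h3]; trivial
    have h5 : g' ∈ (Subgroup.zpowers (τ tB)).comap τ := by rw [h3]; trivial
    rw [Subgroup.mem_comap] at h4 h5
    obtain ⟨a, ha⟩ := h4
    obtain ⟨b, hb⟩ := h5
    simp only at ha hb
    rw [← ha, ← hb, ← zpow_add, ← zpow_add, add_comm]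
  let t : V ≃ₗ[F] V := τ tB
  have htt : ∀ v, t (t v) = v := by
    intro v
    show (τ tB * τ tB) v = v
    rw [← map_mul, tB_mul_self, map_one]
    rfl
  have hcm : ∀ g : alternatingGroup (Fin 8), ∑ i ∈ B4, dl ((g : Perm (Fin 8)) i) = ∑ i ∈ B4, dl i →
      ∀ v, τ8 g (t v) = t (τ8 g v) := by
    intro g hg v
    show (τ (phi (g : Perm (Fin 8))) * τ tB) v = (τ tB * τ (phi (g : Perm (Fin 8)))) v
    rw [← map_mul, tB_comm hg, map_mul]
  have c1 := hcm A1 commA1
  have c2 := hcm A2 commA2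
  have c3 := hcm C1 commC1
  have c4 := hcm D1 commD1
  have c5 := hcm D2 commD2
  have c6 := hcm E2 commE2
  have hsq : ∀ (k : F) (y : V), y ≠ 0 → t y = k • y → k = 1 ∨ k = -1 := by
    intro k y hy h
    have h1 := htt y
    rw [h, map_smul, h, smul_smul] at h1
    have h3 : (k * k - 1) • y = 0 := by rw [sub_smul, h1, one_smul, sub_self]
    have h4 := (smul_eq_zero.1 h3).resolve_right hy
    exact mul_self_eq_one_iff.1 (by linear_combination h4)
  -- the vector `w`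
  let w : V := u 0 + u 1 + u 2 + u 3
  have hA1w : τ8 A1 w = w := by
    simp only [w, map_add, hτ]
    rw [show (A1 : Perm (Fin 8)) 0 = 1 by decide, show (A1 : Perm (Fin 8)) 1 = 0 by decide,
      show (A1 : Perm (Fin 8)) 2 = 3 by decide, show (A1 : Perm (Fin 8)) 3 = 2 by decide]
    abel
  have hA2w : τ8 A2 w = w := by
    simp only [w, map_add, hτ]
    rw [show (A2 : Perm (Fin 8)) 0 = 2 by decide, show (A2 : Perm (Fin 8)) 1 = 3 by decide,
      show (A2 : Perm (Fin 8)) 2 = 0 by decide, show (A2 : Perm (Fin 8)) 3 = 1 by decide]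
    abel
  have hD1w : τ8 D1 w = w := by
    simp only [w, map_add, hτ]
    rw [show (D1 : Perm (Fin 8)) 0 = 0 by decide, show (D1 : Perm (Fin 8)) 1 = 1 by decide,
      show (D1 : Perm (Fin 8)) 2 = 2 by decide, show (D1 : Perm (Fin 8)) 3 = 3 by decide]
  have hD2w : τ8 D2 w = w := by
    simp only [w, map_add, hτ]
    rw [show (D2 : Perm (Fin 8)) 0 = 0 by decide, show (D2 : Perm (Fin 8)) 1 = 1 by decide,
      show (D2 : Perm (Fin 8)) 2 = 2 by decide, show (D2 : Perm (Fin 8)) 3 = 3 by decide]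
  obtain ⟨k0, hk0⟩ : ∃ k : F, t w = k • w := by
    refine in_W0 hu hτ h7 ?_ ?_ ?_ ?_
    · rw [c1, hA1w]
    · rw [c2, hA2w]
    · rw [c4, hD1w]
    · rw [c5, hD2w]
  let v1 : V := u 0 + u 1 - u 2 - u 3
  have hA1v : τ8 A1 v1 = v1 := by
    simp only [v1, map_add, map_sub, hτ]
    rw [show (A1 : Perm (Fin 8)) 0 = 1 by decide, show (A1 : Perm (Fin 8)) 1 = 0 by decide,
      show (A1 : Perm (Fin 8)) 2 = 3 by decide, show (A1 : Perm (Fin 8)) 3 = 2 by decide]
    abel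
  have hA2v : τ8 A2 v1 = -v1 := by
    simp only [v1, map_add, map_sub, hτ]
    rw [show (A2 : Perm (Fin 8)) 0 = 2 by decide, show (A2 : Perm (Fin 8)) 1 = 3 by decide,
      show (A2 : Perm (Fin 8)) 2 = 0 by decide, show (A2 : Perm (Fin 8)) 3 = 1 by decide]
    abel
  have hD1v : τ8 D1 v1 = v1 := by
    simp only [v1, map_add, map_sub, hτ]
    rw [show (D1 : Perm (Fin 8)) 0 = 0 by decide, show (D1 : Perm (Fin 8)) 1 = 1 by decide,
      show (D1 : Perm (Fin 8)) 2 = 2 by decide, show (D1 : Perm (Fin 8)) 3 = 3 by decide]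
  have hD2v : τ8 D2 v1 = v1 := by
    simp only [v1, map_add, map_sub, hτ]
    rw [show (D2 : Perm (Fin 8)) 0 = 0 by decide, show (D2 : Perm (Fin 8)) 1 = 1 by decide,
      show (D2 : Perm (Fin 8)) 2 = 2 by decide, show (D2 : Perm (Fin 8)) 3 = 3 by decide]
  obtain ⟨k1, hk1⟩ : ∃ k : F, t v1 = k • v1 := by
    refine in_W1 hu hτ h7 ?_ ?_ ?_ ?_
    · rw [c1, hA1v]
    · rw [c2, hA2v, map_neg]
    · rw [c4, hD1v]
    · rw [c5, hD2v]
  have hw0 : w ≠ 0 := by
    intro h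
    have h1 := hu.rel (fun i => if i = 0 ∨ i = 1 ∨ i = 2 ∨ i = 3 then 1 else 0) (by
      rw [← h]
      simp [Fin.sum_univ_eight, w]) 0 4
    simp at h1
  have hv0 : v1 ≠ 0 := by
    intro h
    have h1 := hu.rel (fun i => if i = 0 ∨ i = 1 then 1 else if i = 2 ∨ i = 3 then -1 else 0) (by
      rw [← h]
      simp [Fin.sum_univ_eight, v1, sub_eq_add_neg]) 0 4
    simp at h1
  have e0 := hsq k0 w hw0 hk0
  have e1 := hsq k1 v1 hv0 hk1
  -- the other two vectors of the block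
  have hC0 : (C1 : Perm (Fin 8)) 0 = 0 := by decide
  have hC1 : (C1 : Perm (Fin 8)) 1 = 2 := by decide
  have hC2 : (C1 : Perm (Fin 8)) 2 = 3 := by decide
  have hC3 : (C1 : Perm (Fin 8)) 3 = 1 := by decide
  have hv2 : τ8 C1 v1 = u 0 + u 2 - u 3 - u 1 := by
    simp only [v1, map_add, map_sub, hτ, hC0, hC1, hC2, hC3]
  have hv3 : τ8 C1 (u 0 + u 2 - u 3 - u 1) = u 0 + u 3 - u 1 - u 2 := by
    simp only [map_add, map_sub, hτ, hC0, hC1, hC2, hC3]
  have tv2 : t (u 0 + u 2 - u 3 - u 1) = k1 • (u 0 + u 2 - u 3 - u 1) := by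
    rw [← hv2, ← c3, hk1, map_smul]
  have tv3 : t (u 0 + u 3 - u 1 - u 2) = k1 • (u 0 + u 3 - u 1 - u 2) := by
    rw [← hv3, ← c3, tv2, map_smul]
  have h4 : (4 : F) ≠ 0 := by
    rw [show (4 : F) = 2 * 2 by norm_num]
    exact mul_ne_zero h2 h2
  have ht0 : t (u 0) = k1 • u 0 + ((k0 - k1) / 4) • w := by
    have h5 : (4 : F) • u 0 = w + v1 + (u 0 + u 2 - u 3 - u 1) + (u 0 + u 3 - u 1 - u 2) := by
      simp only [w, v1]
      module
    have h6 : (4 : F) • t (u 0) = k0 • w + k1 • v1 + k1 • (u 0 + u 2 - u 3 - u 1) + k1 • (u 0 + u 3 - u 1 - u 2) := by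
      rw [← map_smul, h5, map_add, map_add, map_add, hk0, hk1, tv2, tv3]
    have h8 : (4 : F) • t (u 0) = (4 : F) • (k1 • u 0 + ((k0 - k1) / 4) • w) := by
      have h10 : (4 : F) * ((k0 - k1) / 4) = k0 - k1 := mul_div_cancel₀ _ h4
      have h11 : (4 : F) • (k1 • u 0 + ((k0 - k1) / 4) • w) = (4 * k1) • u 0 + (k0 - k1) • w := by
        rw [smul_add, smul_smul, smul_smul, h10]
      rw [h11, h6]
      simp only [w, v1]
      module
    exact smul_right_injective V h4 h8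
  refine ⟨hu.basis h7, ?_⟩
  have hum : ∀ i, u i ∈ pspan (hu.basis h7) := by
    intro i
    rcases Fin.eq_castSucc_or_eq_last i with ⟨j, rfl⟩ | rfl
    · rw [← hu.basis_apply h7]
      exact Submodule.subset_span ⟨j, rfl⟩
    · rw [hu.last_eq]
      refine Submodule.neg_mem _ (Submodule.sum_mem _ fun j _ => ?_)
      rw [← hu.basis_apply h7]
      exact Submodule.subset_span ⟨j, rfl⟩
  have hτm : ∀ (g : alternatingGroup (Fin 8)) v, v ∈ pspan (hu.basis h7) → τ8 g v ∈ pspan (hu.basis h7) := by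
    intro g v hv
    refine pspan_map (hu.basis h7) (τ8 g : V →ₗ[F] V) (fun j => ?_) hv
    rw [hu.basis_apply]
    show τ8 g (u j.castSucc) ∈ _
    rw [hτ]
    exact hum _
  have hsm : ∀ (k : F) (v : V), k ∈ (⊥ : Subfield F) → v ∈ pspan (hu.basis h7) → k • v ∈ pspan (hu.basis h7) :=
    fun k v hk hv => Submodule.smul_mem (pspan (hu.basis h7)) (⟨k, hk⟩ : (⊥ : Subfield F)) hv
  have pm1 : ∀ k : F, k = 1 ∨ k = -1 → k ∈ (⊥ : Subfield F) := by
    rintro k (rfl | rfl)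
    · exact Subfield.one_mem _
    · exact Subfield.neg_mem _ (Subfield.one_mem _)
  have hwm : w ∈ pspan (hu.basis h7) :=
    Submodule.add_mem _ (Submodule.add_mem _ (Submodule.add_mem _ (hum 0) (hum 1)) (hum 2)) (hum 3)
  have ht0m : t (u 0) ∈ pspan (hu.basis h7) := by
    rw [ht0]
    refine Submodule.add_mem _ (hsm _ _ (pm1 _ e1) (hum 0)) (hsm _ _ ?_ hwm)
    refine Subfield.div_mem _ (Subfield.sub_mem _ (pm1 _ e0) (pm1 _ e1)) ?_
    have h9 : ((4 : ℕ) : F) ∈ (⊥ : Subfield F) := natCast_mem _ 4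
    exact_mod_cast h9
  have hstep : ∀ (g : alternatingGroup (Fin 8)) (i : Fin 8), (∀ v, τ8 g (t v) = t (τ8 g v)) →
      t (u i) ∈ pspan (hu.basis h7) → t (u ((g : Perm (Fin 8)) i)) ∈ pspan (hu.basis h7) := by
    intro g i hg hi
    rw [← hτ, ← hg]
    exact hτm g _ hi
  have ht1m : t (u 1) ∈ pspan (hu.basis h7) := hstep A1 0 c1 ht0m
  have ht2m : t (u 2) ∈ pspan (hu.basis h7) := hstep A2 0 c2 ht0m
  have ht3m : t (u 3) ∈ pspan (hu.basis h7) := hstep A2 1 c2 ht1m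
  have ht4m : t (u 4) ∈ pspan (hu.basis h7) := hstep E2 0 c6 ht0m
  have ht5m : t (u 5) ∈ pspan (hu.basis h7) := hstep E2 1 c6 ht1m
  have ht6m : t (u 6) ∈ pspan (hu.basis h7) := hstep E2 2 c6 ht2m
  have ht7m : t (u 7) ∈ pspan (hu.basis h7) := hstep E2 3 c6 ht3m
  have htm : ∀ v, v ∈ pspan (hu.basis h7) → t v ∈ pspan (hu.basis h7) := by
    intro v hv
    refine pspan_map (hu.basis h7) (t : V →ₗ[F] V) (fun j => ?_) hv
    rw [hu.basis_apply]
    show t (u j.castSucc) ∈ _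
    fin_cases j
    · exact ht0m
    · exact ht1m
    · exact ht2m
    · exact ht3m
    · exact ht4m
    · exact ht5m
    · exact ht6m
  have hK : (pstab (hu.basis h7)).comap τ = ⊤ := by
    apply gen
    · intro g
      rw [Subgroup.mem_comap]
      intro v
      refine ⟨fun h => ?_, fun h => hτm g v h⟩
      have h9 := hτm g⁻¹ _ h
      have h10 : τ8 g⁻¹ (τ (phi (g : Perm (Fin 8))) v) = v := by
        show (τ8 g⁻¹ * τ8 g) v = v
        rw [← map_mul, inv_mul_cancel, map_one]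
        rfl
      rwa [h10] at h9
    · rw [Subgroup.mem_comap]
      intro v
      refine ⟨fun h => ?_, fun h => htm v h⟩
      have h9 := htm _ h
      rwa [show t (τ tB v) = v from htt v] at h9
  intro g j
  have h9 : g ∈ (pstab (hu.basis h7)).comap τ := by rw [hK]; trivial
  rw [Subgroup.mem_comap] at h9
  exact (h9 _).2 (Submodule.subset_span ⟨j, rfl⟩)

end Cfsg.Agent.H856.Sv
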