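import Cfsg.Agent.H856.TrioP
import Cfsg.Agent.H856.BridgeIso
import Cfsg.Agent.H858.Norm57

/-!
# Groups of type J4: the normalisers of the Sylow 5- and 7-subgroups lie in `M`
-/

set_option autoImplicit false

open scoped Pointwise

namespace Cfsg.Agent.H856.TrioJ

open Cfsg Cfsg.Agent.J4Type.TauCent
open Cfsg.Agent.H856.TrioN Cfsg.Agent.H856.TrioL Cfsg.Agent.H856.TrioS Cfsg.Agent.H856.TrioP

variable {G : Type*} [Group G] [Finite G] (C : J4Type.Compl G)

include C in
theorem exists_iso : Nonempty (Cfsg.Spor.J4 ≃* G) := by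
  obtain ⟨f, hf, -⟩ := BridgeIso.exists_iso_of_compl C
  exact ⟨MulEquiv.ofBijective f hf⟩

include C in
theorem card_G : Nat.card G = 86775571046077562880 := by
  obtain ⟨e⟩ := exists_iso C
  rw [← Nat.card_congr e.toEquiv, H858.FixJ4.card_J4]

include C in
theorem finite_J4 : Finite Cfsg.Spor.J4 := by
  obtain ⟨e⟩ := exists_iso C
  exact Finite.of_equiv G e.symm.toEquiv

theorem card_normalizer_map {A B : Type*} [Group A] [Group B] (e : A ≃* B) (P : Subgroup A) :
    Nat.card (Subgroup.normalizer ((P.map e.toMonoidHom : Subgroup B) : Set B)) =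
      Nat.card (Subgroup.normalizer (P : Set A)) := by
  have h := Subgroup.map_equiv_normalizer_eq P e
  rw [← h]
  exact Subgroup.card_map_of_injective e.injective

include C in
/-- the order of the normaliser of a subgroup of order 7 -/
theorem card_norm_seven {P : Subgroup G} (hP : Nat.card P = 7) :
    Nat.card (Subgroup.normalizer (P : Set G)) = 2520 := by
  have : Fact (Nat.Prime 7) := ⟨by norm_num⟩
  obtain ⟨e⟩ := exists_iso C
  have := finite_J4 C
  have h1 : Nat.card (P.map e.symm.toMonoidHom) = 7 := by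
    rw [Subgroup.card_map_of_injective e.symm.injective, hP]
  rw [← card_normalizer_map e.symm P,
    card_normalizer_eq (p := 7) (by rw [H858.FixJ4.card_J4]; norm_num) h1 H858.Norm57.card_S7]
  exact H858.Norm57.card_normalizer_S7

include C in
/-- the order of the normaliser of a subgroup of order 5 -/
theorem card_norm_five_of {P : Subgroup G} (hP : Nat.card P = 5)
    (h7 : 7 ∣ Nat.card (Subgroup.normalizer (P : Set G))) :
    Nat.card (Subgroup.normalizer (P : Set G)) = 26880 := by
  have : Fact (Nat.Prime 5) := ⟨by norm_num⟩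
  obtain ⟨e⟩ := exists_iso C
  have := finite_J4 C
  have h1 : Nat.card (P.map e.symm.toMonoidHom) = 5 := by
    rw [Subgroup.card_map_of_injective e.symm.injective, hP]
  have h2 := card_normalizer_map e.symm P
  rw [card_normalizer_eq (p := 5) (by rw [H858.FixJ4.card_J4]; norm_num) h1
    H858.Norm57.card_Q5] at h2
  rw [← h2] at h7 ⊢
  exact H858.Norm57.card_normalizer_Q5_of h7

omit [Finite G] in
theorem map_norm_le (P : Subgroup (MM C)) :
    (Subgroup.normalizer (P : Set (MM C))).map (MM C).subtype ≤
      Subgroup.normalizer ((P.map (MM C).subtype : Subgroup G) : Set G) :=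
  Subgroup.le_normalizer_map _

omit [Finite G] in
theorem card_map_sub (P : Subgroup (MM C)) : Nat.card (P.map (MM C).subtype) = Nat.card P :=
  Subgroup.card_map_of_injective (MM C).subtype_injective

/-- the normaliser of a subgroup of order 5 of `M` lies in `M` -/
theorem norm_five_eq {P : Subgroup (MM C)} (hP : Nat.card P = 5) :
    Subgroup.normalizer ((P.map (MM C).subtype : Subgroup G) : Set G) =
      (Subgroup.normalizer (P : Set (MM C))).map (MM C).subtype := by
  have h1 : Nat.card (P.map (MM C).subtype) = 5 := by rw [card_map_sub, hP]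
  obtain ⟨h2, h3⟩ := norm_five C hP
  have h4 : 7 ∣ Nat.card (Subgroup.normalizer ((P.map (MM C).subtype : Subgroup G) : Set G)) := by
    refine h3.trans ?_
    rw [← card_map_sub C]
    exact Subgroup.card_dvd_of_le (map_norm_le C P)
  have h5 := card_norm_five_of C h1 h4
  exact (Subgroup.eq_of_le_of_card_ge (map_norm_le C P) (by rw [h5, card_map_sub]; exact h2)).symm

/-- the normaliser of a subgroup of order 7 of `M` lies in `M` -/
theorem norm_seven_eq {P : Subgroup (MM C)} (hP : Nat.card P = 7) :
    Subgroup.normalizer ((P.map (MM C).subtype : Subgroup G) : Set G) =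
      (Subgroup.normalizer (P : Set (MM C))).map (MM C).subtype := by
  have h1 : Nat.card (P.map (MM C).subtype) = 7 := by rw [card_map_sub, hP]
  have h2 := norm_seven C hP
  have h5 := card_norm_seven C h1
  exact (Subgroup.eq_of_le_of_card_ge (map_norm_le C P) (by rw [h5, card_map_sub]; exact h2)).symm

/-- exact order of the normaliser in `M` -/
theorem card_norm_five {P : Subgroup (MM C)} (hP : Nat.card P = 5) :
    Nat.card (Subgroup.normalizer (P : Set (MM C))) = 26880 := by
  have h1 : Nat.card (P.map (MM C).subtype) = 5 := by rw [card_map_sub, hP]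
  obtain ⟨h2, h3⟩ := norm_five C hP
  rw [← card_map_sub C, ← norm_five_eq C hP]
  apply card_norm_five_of C h1
  rw [norm_five_eq C hP, card_map_sub]
  exact h3

theorem card_norm_seven' {P : Subgroup (MM C)} (hP : Nat.card P = 7) :
    Nat.card (Subgroup.normalizer (P : Set (MM C))) = 2520 := by
  have h1 : Nat.card (P.map (MM C).subtype) = 7 := by rw [card_map_sub, hP]
  rw [← card_map_sub C, ← norm_seven_eq C hP]
  exact card_norm_seven C h1

theorem exists_five : ∃ P : Subgroup (MM C), Nat.card P = 5 := by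
  have : Fact (Nat.Prime 5) := ⟨by norm_num⟩
  obtain ⟨S⟩ : Nonempty (Sylow 5 (MM C)) := inferInstance
  exact ⟨S, card_sylow (not_sq_dvd5 C) (by rw [card_MM']; norm_num) S⟩

theorem exists_seven : ∃ P : Subgroup (MM C), Nat.card P = 7 := by
  have : Fact (Nat.Prime 7) := ⟨by norm_num⟩
  obtain ⟨S⟩ : Nonempty (Sylow 7 (MM C)) := inferInstance
  exact ⟨S, card_sylow (not_sq_dvd7 C) (by rw [card_MM']; norm_num) S⟩

/-! ### the statement on Sylow subgroups -/

theorem exists_sylow5 : ∃ Q : Sylow 5 G,
    Subgroup.normalizer ((Q : Subgroup G) : Set G) ≤ MM C := by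
  have : Fact (Nat.Prime 5) := ⟨by norm_num⟩
  obtain ⟨P, hP⟩ := exists_five C
  obtain ⟨S, hS⟩ := exists_sylow_of_card (K := G) (p := 5) (by rw [card_G C]; norm_num)
    (P := P.map (MM C).subtype) (by rw [card_map_sub, hP])
  refine ⟨S, ?_⟩
  rw [hS, norm_five_eq C hP]
  exact Subgroup.map_subtype_le _

theorem exists_sylow7 : ∃ Q : Sylow 7 G,
    Subgroup.normalizer ((Q : Subgroup G) : Set G) ≤ MM C := by
  have : Fact (Nat.Prime 7) := ⟨by norm_num⟩
  obtain ⟨P, hP⟩ := exists_seven C
  obtain ⟨S, hS⟩ := exists_sylow_of_card (K := G) (p := 7) (by rw [card_G C]; norm_num)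
    (P := P.map (MM C).subtype) (by rw [card_map_sub, hP])
  refine ⟨S, ?_⟩
  rw [hS, norm_seven_eq C hP]
  exact Subgroup.map_subtype_le _

/-! ### the subgroup `S5` -/

/-- in the normaliser of a subgroup of order 7 the action is faithful -/
theorem ΘN_inj {P : Subgroup (MM C)} (hP : Nat.card P = 7) : Function.Injective (ΘN C P) := by
  rw [← MonoidHom.ker_eq_bot_iff]
  have h1 := card_norm_eq C P
  have h2 := card_range_seven C hP
  rw [card_norm_seven' C hP] at h1
  have h3 : Nat.card (ΘN C P).ker = 1 := by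
    have h4 : 1 ≤ Nat.card (ΘN C P).ker := Nat.card_pos
    by_contra h5
    have h6 : 2 ≤ Nat.card (ΘN C P).ker := by omega
    have h7 := Nat.mul_le_mul h6 h2
    rw [h1] at h7
    norm_num at h7
  exact Subgroup.card_eq_one.1 h3

theorem exists_K1 : ∃ K : Subgroup G, K ≤ MM C ∧ Nonempty (K ≃* Equiv.Perm (Fin 5)) := by
  have : Fact (Nat.Prime 7) := ⟨by norm_num⟩
  obtain ⟨P, hP⟩ := exists_seven C
  have hinj := ΘN_inj C hP
  have hr := range_ΘN C (not_sq_dvd7 C) hP
  rw [map_Θ_seven C hP] at hr
  have h1 : ∀ σ : Equiv.Perm (Fin 5), ∃ n, ΘN C P n = (σ, 1) := by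
    intro σ
    have h2 : (σ, (1 : MulAut (D C))) ∈ (ΘN C P).range := by
      rw [hr]
      exact mem_normalizer_prod (by rw [Subgroup.normalizer_eq_top]; trivial) (one_mem _)
    exact h2
  choose f hf using h1
  let g : Equiv.Perm (Fin 5) →* G := ((MM C).subtype.comp
    (Subgroup.normalizer (P : Set (MM C))).subtype).comp
    { toFun := f
      map_one' := hinj (by rw [hf, map_one]; rfl)
      map_mul' := fun a b => hinj (by rw [map_mul, hf, hf, hf, Prod.mk_mul_mk, one_mul]) }
  have hg : Function.Injective g := by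
    intro a b h
    have h3 : f a = f b := Subtype.ext (Subtype.ext h)
    have h4 := congrArg (ΘN C P) h3
    rw [hf, hf, Prod.mk.injEq] at h4
    exact h4.1
  refine ⟨g.range, ?_, ⟨(MonoidHom.ofInjective hg).symm⟩⟩
  rintro _ ⟨σ, rfl⟩
  exact (f σ : MM C).2

end Cfsg.Agent.H856.TrioJ
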