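import Cfsg.Agent.H856.TrioN
import Cfsg.Agent.H856.TrioL32
import Cfsg.Agent.StdL2.G23Aut
import Cfsg.Agent.StdL2.G23Coset
import Cfsg.Agent.Lib.FrattiniBasic

/-!
# Groups of type J4: `O_2` of the normaliser `M` of the trio group `D`
-/

set_option autoImplicit false

open scoped Pointwise

namespace Cfsg.Agent.H856.TrioL

open Cfsg Cfsg.Agent.SporadicA.GolayPerm Cfsg.Agent.SporadicA.GolayBase
open Cfsg.Agent.J4Type Cfsg.Agent.J4Type.CocodeMask Cfsg.Agent.J4Type.TauM24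
open Cfsg.Agent.J4Type.TauP Cfsg.Agent.J4Type.TauF Cfsg.Agent.J4Type.TauCol
open Cfsg.Agent.J4Type.TauMask Cfsg.Agent.J4Type.TauCent Cfsg.Agent.J4Type.FrameDefs
open Cfsg.Agent.J4Type.SplitData Cfsg.Agent.H856.TrioZ Cfsg.Agent.H856.TrioN
open Cfsg.Agent.J4Type.HexPerms (hex0_isHex)

variable {G : Type*} [Group G] (C : J4Type.Compl G)

theorem oct_D : StdL2.G23Aut.Oct (D C) :=
  ⟨card_D C, fun v hv => (C.E_elem hex0 hex0_isHex).1 v hv.1⟩

theorem D_comm {a b : G} (ha : a ∈ D C) (hb : b ∈ D C) : a * b = b * a :=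
  (C.E_elem hex0 hex0_isHex).2 a ha.1 b hb.1

/-! ### the action on `D` -/

/-- the action on `D` -/
noncomputable def ψ : MM C →* MulAut (D C) := (D C).normalizerMonoidHom

theorem ψ_apply (g : MM C) (d : D C) : ((ψ C g d : D C) : G) = g * d * (g : G)⁻¹ := rfl

theorem mem_ker_ψ (g : MM C) : ψ C g = 1 ↔ g ∈ CM C := by
  have := (D C).normalizerMonoidHom_ker
  rw [← MonoidHom.mem_ker]
  show g ∈ (D C).normalizerMonoidHom.ker ↔ _
  rw [this]

/-- `φ` on the trio group -/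
noncomputable def φM : KTs →* MM C where
  toFun n := ⟨C.φ n, φ_mem_MM C n.2⟩
  map_one' := Subtype.ext (map_one C.φ)
  map_mul' _ _ := Subtype.ext (map_mul C.φ _ _)

theorem Y_le_KTs : TrioL32.Y ≤ KTs := fun _ hy => TrioL32.Y_le hy

/-- the action of `Y` on `D` -/
noncomputable def ψY : TrioL32.Y →* MulAut (D C) :=
  (ψ C).comp ((φM C).comp (Subgroup.inclusion Y_le_KTs))

theorem ψY_ne {y : TrioL32.Y} {w : ℕ} (hw : w ∈ Wm) (h : act (y : M24) w ≠ w) : ψY C y ≠ 1 := by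
  intro h1
  have h2 := congrArg (fun f : MulAut (D C) => ((f ⟨_, c_mem_D C hw⟩ : D C) : G)) h1
  have h3 : C.φ (y : M24) * (c C.toFrame w : G) * (C.φ (y : M24))⁻¹ = c C.toFrame w := h2
  rw [φ_c C _ (ev_Wm hw)] at h3
  exact h (c_inj C.toFrame (ev_act _ (ev_Wm hw)) (ev_Wm hw) h3)

theorem zm_mem_Wm : zm ∈ Wm := by decide +kernel

theorem ψY_surj [Finite G] : Function.Surjective (ψY C) := by
  have hO := oct_D C
  have := hO.finite_aut
  have := hO.simple_aut
  rw [← MonoidHom.range_eq_top]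
  by_contra hX
  have h1 := Cfsg.Agent.SmallSimple.Simple168Klein.index_ge_seven hO.card_aut _ hX
  have h2 := (ψY C).range.card_mul_index
  rw [hO.card_aut] at h2
  have h7 : 7 ∣ Nat.card (ψY C).range := by
    have : Fact (Nat.Prime 7) := ⟨by norm_num⟩
    have h : orderOf (ψY C ⟨TrioL32.g7, TrioL32.g7_memY⟩) = 7 := by
      apply orderOf_eq_prime
      · rw [← map_pow, ← map_one (ψY C)]
        exact congrArg _ (Subtype.ext TrioL32.g7_pow)
      · exact ψY_ne C zm_mem_Wm TrioL32.act_g7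
    rw [← h]
    exact Subgroup.orderOf_dvd_natCard _ ⟨_, rfl⟩
  have h3 : 3 ∣ Nat.card (ψY C).range := by
    have : Fact (Nat.Prime 3) := ⟨by norm_num⟩
    have h : orderOf (ψY C ⟨TrioL32.gb, TrioL32.gb_memY⟩) = 3 := by
      apply orderOf_eq_prime
      · rw [← map_pow, ← map_one (ψY C)]
        exact congrArg _ (Subtype.ext TrioL32.gb_cube)
      · exact ψY_ne C (w := 904) (by decide +kernel) TrioL32.act_gb
    rw [← h]
    exact Subgroup.orderOf_dvd_natCard _ ⟨_, rfl⟩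
  have h4 : 4 ∣ Nat.card (ψY C).range := by
    have : Fact (Nat.Prime 2) := ⟨by norm_num⟩
    have h : orderOf (ψY C ⟨TrioL32.g4, TrioL32.g4_memY⟩) = 2 ^ (1 + 1) := by
      apply orderOf_eq_prime_pow
      · rw [← map_pow, pow_one]
        apply ψY_ne C zm_mem_Wm
        have := TrioL32.act_g4
        rw [← pow_two] at this
        exact this
      · rw [← map_pow, ← map_one (ψY C)]
        exact congrArg _ (Subtype.ext TrioL32.g4_pow)
    have e : 4 = 2 ^ (1 + 1) := rfl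
    rw [e, ← h]
    exact Subgroup.orderOf_dvd_natCard _ ⟨_, rfl⟩
  have h84 : 7 * (3 * 4) ∣ Nat.card (ψY C).range :=
    Nat.Coprime.mul_dvd_of_dvd_of_dvd (by norm_num) h7
      (Nat.Coprime.mul_dvd_of_dvd_of_dvd (by norm_num) h3 h4)
  have h5 : 84 ≤ Nat.card (ψY C).range := Nat.le_of_dvd Nat.card_pos h84
  nlinarith

theorem ψY_bij [Finite G] : Function.Bijective (ψY C) := by
  have hO := oct_D C
  have := hO.finite_aut
  have hY : Finite TrioL32.Y := inferInstance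
  rw [Nat.bijective_iff_surjective_and_card]
  refine ⟨ψY_surj C, le_antisymm ?_ (Nat.card_le_card_of_surjective _ (ψY_surj C))⟩
  rw [hO.card_aut]
  exact TrioL32.card_Y_le

theorem ψ_surj [Finite G] : Function.Surjective (ψ C) := by
  intro f
  obtain ⟨y, hy⟩ := ψY_surj C f
  exact ⟨_, hy⟩

/-! ### the group `L` -/

/-- the joint action -/
noncomputable def Θ : MM C →* Equiv.Perm (Fin 5) × MulAut (D C) := (χ C).prod (ψ C)

theorem Θ_surj [Finite G] : Function.Surjective (Θ C) := by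
  rintro ⟨σ, f⟩
  obtain ⟨g, hg⟩ := ψ_surj C f
  obtain ⟨h, hh, h1⟩ := exists_χ_eq C (σ * (χ C g)⁻¹)
  refine ⟨h * g, ?_⟩
  have h2 : ψ C h = 1 := (mem_ker_ψ C h).2 hh
  show (χ C (h * g), ψ C (h * g)) = (σ, f)
  rw [map_mul, map_mul, h1, h2, hg, inv_mul_cancel_right, one_mul]

/-- `O_2(M)` -/
noncomputable def L : Subgroup G := ((Θ C).ker).map (MM C).subtype

theorem L_le : L C ≤ MM C := by
  rintro _ ⟨g, -, rfl⟩
  exact g.2

theorem L_subgroupOf : (L C).subgroupOf (MM C) = (Θ C).ker := by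
  rw [L, Subgroup.subgroupOf]
  exact Subgroup.comap_map_eq_self_of_injective (MM C).subtype_injective _

theorem mem_L {g : G} : g ∈ L C ↔ ∃ h : g ∈ MM C, χ C ⟨g, h⟩ = 1 ∧ ψ C ⟨g, h⟩ = 1 := by
  constructor
  · rintro ⟨g, hg, rfl⟩
    have h1 : (χ C g, ψ C g) = 1 := hg
    rw [Prod.mk_eq_one] at h1
    exact ⟨g.2, h1⟩
  · rintro ⟨h, h1, h2⟩
    refine ⟨⟨g, h⟩, ?_, rfl⟩
    show (χ C _, ψ C _) = 1
    rw [Prod.mk_eq_one]
    exact ⟨h1, h2⟩

theorem card_L [Finite G] : Nat.card (L C) = 2 ^ 15 := by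
  have h1 := (Θ C).ker.card_mul_index
  have h2 : Nat.card (L C) = Nat.card (Θ C).ker :=
    Subgroup.card_map_of_injective (MM C).subtype_injective
  have h3 : (Θ C).ker.index = 120 * 168 := by
    rw [Subgroup.index_ker, MonoidHom.range_eq_top.2 (Θ_surj C), Subgroup.card_top, Nat.card_prod,
      (oct_D C).card_aut, Nat.card_eq_fintype_card, Fintype.card_perm, Fintype.card_fin]
    norm_num [Nat.factorial]
  rw [h3, card_MM] at h1
  rw [h2]
  exact Nat.eq_of_mul_eq_mul_right (by norm_num : 0 < 120 * 168) (h1.trans (by norm_num))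

theorem L_normal : ((L C).subgroupOf (MM C)).Normal := by
  rw [L_subgroupOf]
  infer_instance

theorem conj_mem_L {g : G} (hg : g ∈ MM C) {x : G} (hx : x ∈ L C) : g * x * g⁻¹ ∈ L C := by
  have := (L_normal C).conj_mem ⟨x, L_le C hx⟩ hx ⟨g, hg⟩
  exact this

theorem L_le_cent : L C ≤ Subgroup.centralizer (D C : Set G) := by
  intro g hg
  obtain ⟨h, -, h2⟩ := (mem_L C).1 hg
  exact (mem_ker_ψ C _).1 h2

theorem L_comm_D {x d : G} (hx : x ∈ L C) (hd : d ∈ D C) : x * d = d * x :=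
  (Subgroup.mem_centralizer_iff.1 (L_le_cent C hx) d hd).symm

theorem L_conj_E {x : G} (h : x ∈ L C) (i : Fin 5) (a : G) :
    a ∈ C.E (hx i) ↔ x * a * x⁻¹ ∈ C.E (hx i) := by
  obtain ⟨h, h1, -⟩ := (mem_L C).1 h
  have h2 := χ_spec C ⟨x, h⟩ i a
  rw [h1] at h2
  exact h2

end Cfsg.Agent.H856.TrioL
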