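import Cfsg.Agent.H856.TrioZ
import Cfsg.Agent.J4Type.FusionConj
import Cfsg.Agent.S1557

/-!
# Groups of type J4: the normaliser `M` of the trio group `D` and its action on five groups
-/

set_option autoImplicit false

open scoped Pointwise

namespace Cfsg.Agent.H856.TrioN

open Cfsg Cfsg.Agent.SporadicA.GolayPerm Cfsg.Agent.SporadicA.GolayBase
open Cfsg.Agent.J4Type Cfsg.Agent.J4Type.CocodeMask Cfsg.Agent.J4Type.TauM24
open Cfsg.Agent.J4Type.TauP Cfsg.Agent.J4Type.TauF Cfsg.Agent.J4Type.TauCol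
open Cfsg.Agent.J4Type.TauMask Cfsg.Agent.J4Type.TauCent Cfsg.Agent.J4Type.FrameDefs
open Cfsg.Agent.J4Type.SplitData Cfsg.Agent.H856.TrioZ
open Cfsg.Agent.J4Type.HexPerms (hex0_isHex)

/-! ### generalities -/

/-- a functional relation compatible with the multiplication is a permutation representation -/
theorem exists_permHom {M ι : Type*} [Group M] (R : M → ι → ι → Prop)
    (hex : ∀ g i, ∃ j, R g i j) (huniq : ∀ g i j k, R g i j → R g i k → j = k)
    (h1 : ∀ i, R 1 i i) (hmul : ∀ g h i j k, R h i j → R g j k → R (g * h) i k) :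
    ∃ χ : M →* Equiv.Perm ι, ∀ g i, R g i (χ g i) := by
  choose f hf using hex
  have hf1 : ∀ i, f 1 i = i := fun i => huniq 1 i _ _ (hf 1 i) (h1 i)
  have hfm : ∀ g h i, f (g * h) i = f g (f h i) :=
    fun g h i => huniq _ _ _ _ (hf _ _) (hmul g h i _ _ (hf h i) (hf g _))
  refine ⟨{ toFun := fun g => ⟨f g, f g⁻¹, fun i => by rw [← hfm, inv_mul_cancel, hf1],
              fun i => by rw [← hfm, mul_inv_cancel, hf1]⟩
            map_one' := Equiv.ext hf1
            map_mul' := fun g h => Equiv.ext (hfm g h) }, fun g i => hf g i⟩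

/-! ### the trio group as a subgroup -/

/-- the stabiliser of the trio `TM` in `M24` -/
def KTs : Subgroup M24 where
  carrier := KT
  mul_mem' := KT_mul
  one_mem' := by
    show (1 : M24) ∈ KT
    have := KT_pow et_mem 0
    rwa [pow_zero] at this
  inv_mem' := KT_inv

theorem mem_KTs {g : M24} : g ∈ KTs ↔ g ∈ KT := Iff.rfl

theorem card_KTs : Nat.card KTs = 64512 := by
  have h1 : KTs = MulAction.stabilizer M24 TM := by
    ext g
    rw [mem_KTs, MulAction.mem_stabilizer_iff]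
    exact Iff.rfl
  have h2 : MulAction.orbit M24 TM = trios := by
    ext T
    constructor
    · rintro ⟨g, rfl⟩
      exact TauMain.smul_mem_trios g TM_mem
    · intro hT
      obtain ⟨g, hg⟩ := FinalTrio.exists_smul TM_mem hT
      exact ⟨g, hg⟩
  have h3 := Subgroup.card_mul_index (MulAction.stabilizer M24 TM)
  rw [MulAction.index_stabilizer, h2, Cfsg.Agent.S1557.result.2, SporadicA.M24Trans.card_M24,
    ← h1] at h3
  exact Nat.eq_of_mul_eq_mul_right (by norm_num : 0 < 3795) (h3.trans (by norm_num))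

/-! ### the normaliser of `D` -/

variable {G : Type*} [Group G] (C : J4Type.Compl G)

/-- `M = N_G(D)` -/
abbrev MM : Subgroup G := Subgroup.normalizer (D C : Set G)

theorem mem_MM {g : G} : g ∈ MM C ↔ ∀ d, d ∈ D C ↔ g * d * g⁻¹ ∈ D C :=
  Subgroup.mem_normalizer_iff

theorem conj_mem_D {g : G} (hg : g ∈ MM C) {d : G} (hd : d ∈ D C) : g * d * g⁻¹ ∈ D C :=
  ((mem_MM C).1 hg d).1 hd

theorem conj_mem_D' {g : G} (hg : g ∈ MM C) {d : G} (hd : d ∈ D C) : g⁻¹ * d * g ∈ D C := by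
  have := conj_mem_D C (inv_mem hg) hd
  rwa [inv_inv] at this

theorem exists_P_hx (i : Fin 5) : ∃ c : Subgroup.centralizer ({C.z} : Set G),
    C.P c • hex0 = hx i := NormE.exists_smul C.toHex hex0_isHex (isHex_hx i)

/-- `M` permutes the five groups `E (hx i)` -/
theorem conj_hx {g : G} (hg : g ∈ MM C) (i : Fin 5) :
    ∃ j, ∀ a, a ∈ C.E (hx i) ↔ g * a * g⁻¹ ∈ C.E (hx j) := by
  obtain ⟨c, hc⟩ := exists_P_hx C i
  have hc' : ∀ a : G, a ∈ C.E hex0 ↔ (c : G) * a * (c : G)⁻¹ ∈ C.E (hx i) := by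
    intro a
    rw [C.E_conj hex0 hex0_isHex c a, hc]
  have h1 : ∀ b : G, (g * c)⁻¹ * b * (g * c) ∈ C.E hex0 ↔ g⁻¹ * b * g ∈ C.E (hx i) := by
    intro b
    rw [hc']
    have : (c : G) * ((g * c)⁻¹ * b * (g * c)) * (c : G)⁻¹ = g⁻¹ * b * g := by group
    rw [this]
  have hD : ∀ d ∈ D C, g⁻¹ * d * g ∈ C.E (hx i) := fun d hd => D_le C i (conj_mem_D' C hg hd)
  obtain ⟨O, hO, h2⟩ := C.E_unique (g * c) ((h1 _).2 (hD _ (z_mem_D C)))
  have h3 : ∀ b, g⁻¹ * b * g ∈ C.E (hx i) ↔ b ∈ C.E O := fun b => (h1 b).symm.trans (h2 b)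
  obtain ⟨j, rfl⟩ := claimB C hO (fun d hd => (h3 d).1 (hD d hd))
  refine ⟨j, fun a => ?_⟩
  rw [← h3]
  have : g⁻¹ * (g * a * g⁻¹) * g = a := by group
  rw [this]

theorem hx_unique {g : G} {i j k : Fin 5} (hj : ∀ a, a ∈ C.E (hx i) ↔ g * a * g⁻¹ ∈ C.E (hx j))
    (hk : ∀ a, a ∈ C.E (hx i) ↔ g * a * g⁻¹ ∈ C.E (hx k)) : j = k := by
  apply hx_inj
  apply NormE.E_inj C.toHex (isHex_hx j) (isHex_hx k)
  ext b
  have h1 := hj (g⁻¹ * b * g)
  have h2 := hk (g⁻¹ * b * g)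
  have h3 : g * (g⁻¹ * b * g) * g⁻¹ = b := by group
  rw [h3] at h1 h2
  rw [← h1, h2]

theorem exists_χ : ∃ χ : MM C →* Equiv.Perm (Fin 5), ∀ (g : MM C) (i : Fin 5),
    ∀ a, a ∈ C.E (hx i) ↔ (g : G) * a * (g : G)⁻¹ ∈ C.E (hx (χ g i)) := by
  apply exists_permHom (fun (g : MM C) i j =>
    ∀ a, a ∈ C.E (hx i) ↔ (g : G) * a * (g : G)⁻¹ ∈ C.E (hx j))
  · exact fun g i => conj_hx C g.2 i
  · exact fun g i j k hj hk => hx_unique C hj hk
  · intro i a
    rw [Subgroup.coe_one, one_mul, inv_one, mul_one]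
  · intro g h i j k h1 h2 a
    rw [h1, h2]
    have : (g : G) * ((h : G) * a * (h : G)⁻¹) * (g : G)⁻¹ =
        ((g * h : MM C) : G) * a * ((g * h : MM C) : G)⁻¹ := by
      rw [Subgroup.coe_mul]
      group
    rw [this]

/-- the action on the five groups -/
noncomputable def χ : MM C →* Equiv.Perm (Fin 5) := (exists_χ C).choose

theorem χ_spec (g : MM C) (i : Fin 5) (a : G) :
    a ∈ C.E (hx i) ↔ (g : G) * a * (g : G)⁻¹ ∈ C.E (hx (χ C g i)) := (exists_χ C).choose_spec g i a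

theorem χ_eq {g : MM C} {i j : Fin 5} (h : ∀ a, a ∈ C.E (hx i) ↔ (g : G) * a * (g : G)⁻¹ ∈ C.E (hx j)) :
    χ C g i = j := hx_unique C (χ_spec C g i) h

theorem χ_of_P {g : MM C} {c : Subgroup.centralizer ({C.z} : Set G)} (hc : (c : G) = g)
    {i j : Fin 5} (h : C.P c • hx i = hx j) : χ C g i = j := by
  apply χ_eq
  intro a
  rw [C.E_conj (hx i) (isHex_hx i) c a, hc, h]

theorem t0_mem_MM : t0 C ∈ MM C := by
  rw [mem_MM]
  intro d
  refine ⟨t0_D C d, fun h => ?_⟩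
  have h1 := t0_D C _ h
  rw [t0_inv] at h1
  have h2 : t0 C * (t0 C * d * t0 C) * t0 C = d := by
    have := t0_sq C
    calc t0 C * (t0 C * d * t0 C) * t0 C = (t0 C * t0 C) * d * (t0 C * t0 C) := by group
      _ = d := by rw [this, one_mul, mul_one]
  rwa [h2] at h1

/-- the centraliser of `D` lies in `M` -/
theorem cent_le : Subgroup.centralizer (D C : Set G) ≤ MM C := by
  intro g hg
  rw [Subgroup.mem_centralizer_iff] at hg
  rw [mem_MM]
  have h1 : ∀ g : G, (∀ h ∈ (D C : Set G), h * g = g * h) → ∀ d ∈ D C, g * d * g⁻¹ ∈ D C := by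
    intro g hg d hd
    rw [← hg d hd, mul_inv_cancel_right]
    exact hd
  intro d
  refine ⟨h1 g hg d, fun h => ?_⟩
  have h2 := h1 g⁻¹ (fun h hh => by
    rw [eq_inv_mul_iff_mul_eq, ← mul_assoc, ← hg h hh, mul_inv_cancel_right]) _ h
  have h3 : g⁻¹ * (g * d * g⁻¹) * g⁻¹⁻¹ = d := by group
  rwa [h3] at h2

theorem t0_mem_cent : t0 C ∈ Subgroup.centralizer (D C : Set G) :=
  Subgroup.mem_centralizer_iff.2 fun d hd => (comm_D C d hd).symm

theorem E_le_cent (i : Fin 5) : C.E (hx i) ≤ Subgroup.centralizer (D C : Set G) := by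
  intro a ha
  rw [Subgroup.mem_centralizer_iff]
  intro d hd
  exact (C.E_elem (hx i) (isHex_hx i)).2 d (D_le C i hd) a ha

/-- `t0` as an element of `M` -/
noncomputable def τ : MM C := ⟨t0 C, t0_mem_MM C⟩

theorem χ_τ : χ C (τ C) = Equiv.swap 0 1 := by
  have key : ∀ i : Fin 5, (bp : Equiv.Perm GolayPt) • hx i = hx (Equiv.swap 0 1 i) := by
    intro i
    refine smul_of_mask _ _ _ _ rfl rfl (hxN_lt i) ?_
    revert i
    decide +kernel
  ext i
  rw [χ_of_P C (g := τ C) (c := f0 C) rfl (i := i) (j := Equiv.swap 0 1 i)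
    (by rw [P_f0]; exact key i)]

/-- the centraliser of `D`, as a subgroup of `M` -/
abbrev CM : Subgroup (MM C) := (Subgroup.centralizer (D C : Set G)).subgroupOf (MM C)

theorem exists_χ_zero (j : Fin 5) : ∃ g ∈ CM C, χ C g 0 = j := by
  by_cases h0 : j = 0
  · exact ⟨1, one_mem _, by rw [map_one, h0]; rfl⟩
  · have hi : hex0 ∩ hx 1 = hex0 ∩ hx j := by
      rw [← hx_zero, hx_inter (by decide), hx_inter (Ne.symm h0)]
    obtain ⟨a, ha, hP⟩ := exists_E_smul C (isHex_hx 1) (isHex_hx j) hi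
      (by rw [← hx_zero]; exact hx_inter_card (by decide))
    have ha' : (a : G) ∈ Subgroup.centralizer (D C : Set G) :=
      E_le_cent C 0 (by rw [hx_zero]; exact ha)
    refine ⟨⟨a, cent_le C ha'⟩ * τ C, mul_mem (Subgroup.mem_subgroupOf.2 ha')
      (Subgroup.mem_subgroupOf.2 (t0_mem_cent C)), ?_⟩
    rw [map_mul, χ_τ, Equiv.Perm.mul_apply, Equiv.swap_apply_left]
    exact χ_of_P C (c := a) rfl hP

theorem map_χ : (CM C).map (χ C) = ⊤ := by
  classical
  set H := (CM C).map (χ C) with hH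
  have horb : MulAction.orbit H (0 : Fin 5) = Set.univ := by
    rw [Set.eq_univ_iff_forall]
    intro j
    obtain ⟨g, hg, h⟩ := exists_χ_zero C j
    exact ⟨⟨χ C g, Subgroup.mem_map_of_mem _ hg⟩, h⟩
  have h1 := MulAction.index_stabilizer (G := H) (0 : Fin 5)
  rw [horb, Set.ncard_univ, Nat.card_fin] at h1
  have h2 : 5 ∣ Nat.card H :=
    (dvd_of_eq h1.symm).trans (Subgroup.index_dvd_card _)
  apply Equiv.Perm.subgroup_eq_top_of_swap_mem (τ := Equiv.swap 0 1)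
  · rw [Fintype.card_fin]
    norm_num
  · rw [Fintype.card_fin, ← Nat.card_eq_fintype_card]
    exact h2
  · rw [← χ_τ C]
    exact Subgroup.mem_map_of_mem _ (Subgroup.mem_subgroupOf.2 (t0_mem_cent C))
  · exact ⟨0, 1, by decide, rfl⟩

theorem exists_χ_eq (σ : Equiv.Perm (Fin 5)) : ∃ g ∈ CM C, χ C g = σ := by
  have : σ ∈ (CM C).map (χ C) := by rw [map_χ]; trivial
  exact this

/-! ### the order of `M` -/

/-- `M ∩ N(E)` as the stabiliser of the first group -/
theorem mem_normalizer_E {g : MM C} :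
    (g : G) ∈ Subgroup.normalizer (C.E hex0 : Set G) ↔ χ C g 0 = 0 := by
  rw [← hx_zero]
  constructor
  · intro h
    exact χ_eq C fun a => Subgroup.mem_normalizer_iff.1 h a
  · intro h
    rw [Subgroup.mem_normalizer_iff]
    intro a
    have := χ_spec C g 0 a
    rwa [h] at this

theorem E_le_MM : C.E hex0 ≤ MM C := by
  have := (E_le_cent C 0).trans (cent_le C)
  rwa [hx_zero] at this

theorem φ_mem_MM {n : M24} (hn : n ∈ KT) : C.φ n ∈ MM C := by
  have key : ∀ n ∈ KT, ∀ d ∈ D C, C.φ n * d * (C.φ n)⁻¹ ∈ D C := by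
    intro n hn d hd
    obtain ⟨a, ha, rfl⟩ := exists_c_of_D C hd
    rw [φ_c C n (ev_Wm ha)]
    exact c_mem_D C (act_mem_Wm n hn a ha)
  rw [mem_MM]
  intro d
  refine ⟨key n hn d, fun h => ?_⟩
  have h1 := key n⁻¹ (KT_inv hn) _ h
  rw [map_inv] at h1
  have h2 : (C.φ n)⁻¹ * (C.φ n * d * (C.φ n)⁻¹) * (C.φ n)⁻¹⁻¹ = d := by group
  rwa [h2] at h1

/-- `M ∩ N(E)` -/
abbrev ME : Subgroup G := MM C ⊓ Subgroup.normalizer (C.E hex0 : Set G)

/-- the restriction of `π` to `M ∩ N(E)` -/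
noncomputable def πM : ME C →* M24 := C.π.comp (Subgroup.inclusion inf_le_right)

theorem πM_apply (g : ME C) : πM C g = C.π ⟨g, g.2.2⟩ := rfl

theorem range_πM : (πM C).range = KTs := by
  ext n
  constructor
  · rintro ⟨g, rfl⟩
    exact π_mem_KT C ⟨g, g.2.2⟩ (fun d hd => conj_mem_D C g.2.1 hd)
  · intro hn
    refine ⟨⟨C.φ n, φ_mem_MM C hn, C.φ_mem n⟩, ?_⟩
    rw [πM_apply]
    exact C.π_φ n

theorem card_ker_πM : Nat.card (πM C).ker = 2 ^ 11 := by
  rw [← C.E_card hex0 hex0_isHex]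
  refine Nat.card_congr (Equiv.ofBijective (fun g : (πM C).ker => (⟨((g : ME C) : G), ?_⟩ : C.E hex0))
    ⟨?_, ?_⟩)
  · exact (C.π_ker _).1 (MonoidHom.mem_ker.1 g.2)
  · intro a b h
    exact Subtype.ext (Subtype.ext (congrArg (fun x : C.E hex0 => (x : G)) h))
  · rintro ⟨a, ha⟩
    have h1 : a ∈ ME C := ⟨E_le_MM C ha, E_le C.toFrame ha⟩
    exact ⟨⟨⟨a, h1⟩, (C.π_ker ⟨a, h1.2⟩).2 ha⟩, rfl⟩

theorem card_ME [Finite G] : Nat.card (ME C) = 2 ^ 11 * 64512 := by
  have h1 := Subgroup.card_mul_index (πM C).ker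
  rw [Subgroup.index_ker, range_πM, card_KTs, card_ker_πM] at h1
  exact h1.symm

theorem card_MM [Finite G] : Nat.card (MM C) = 5 * (2 ^ 11 * 64512) := by
  let _ : MulAction (MM C) (Fin 5) := MulAction.compHom _ (χ C)
  have horb : MulAction.orbit (MM C) (0 : Fin 5) = Set.univ := by
    rw [Set.eq_univ_iff_forall]
    intro j
    obtain ⟨g, -, h⟩ := exists_χ_zero C j
    exact ⟨g, h⟩
  have h1 := MulAction.index_stabilizer (G := MM C) (0 : Fin 5)
  rw [horb, Set.ncard_univ, Nat.card_fin] at h1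
  have h2 := Subgroup.card_mul_index (MulAction.stabilizer (MM C) (0 : Fin 5))
  rw [h1] at h2
  have h3 : Nat.card (MulAction.stabilizer (MM C) (0 : Fin 5)) = Nat.card (ME C) := by
    refine Nat.card_congr (Equiv.ofBijective
      (fun g : MulAction.stabilizer (MM C) (0 : Fin 5) => (⟨((g : MM C) : G), ?_⟩ : ME C)) ⟨?_, ?_⟩)
    · exact ⟨g.1.2, (mem_normalizer_E C).2 g.2⟩
    · intro a b h
      exact Subtype.ext (Subtype.ext (congrArg (fun x : ME C => (x : G)) h))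
    · rintro ⟨a, ha⟩
      exact ⟨⟨⟨a, ha.1⟩, (mem_normalizer_E C).1 ha.2⟩, rfl⟩
  rw [h3, card_ME] at h2
  rw [← h2, mul_comm]

end Cfsg.Agent.H856.TrioN
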