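import Cfsg.Agent.H856.TrioS
import Cfsg.Agent.H856.SylowThree

/-!
# Groups of type J4: Sylow subgroups of order 5 and 7 of the trio 2-local `M`
-/

set_option autoImplicit false

open scoped Pointwise

namespace Cfsg.Agent.H856.TrioP

open Cfsg Cfsg.Agent.J4Type.TauCent
open Cfsg.Agent.H856.TrioN Cfsg.Agent.H856.TrioL Cfsg.Agent.H856.TrioS

/-! ### generalities -/

section Generic

variable {K : Type*} [Group K] [Finite K] {p : ℕ} [hp : Fact p.Prime]

theorem exists_sylow_of_card (h : ¬ p ^ 2 ∣ Nat.card K) {P : Subgroup K} (hP : Nat.card P = p) :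
    ∃ S : Sylow p K, (S : Subgroup K) = P := by
  have h0 : Nat.card K ≠ 0 := Nat.card_pos.ne'
  have h1 : p ∣ Nat.card K := by
    rw [← hP]
    exact Subgroup.card_subgroup_dvd_card P
  have h2 : 1 ≤ (Nat.card K).factorization p :=
    (hp.out.dvd_iff_one_le_factorization h0).1 h1
  have h3 : ¬ 2 ≤ (Nat.card K).factorization p := fun h4 =>
    h ((hp.out.pow_dvd_iff_le_factorization h0).2 h4)
  have h4 : (Nat.card K).factorization p = 1 := by omega
  exact ⟨Sylow.ofCard P (by rw [h4, pow_one, hP]), rfl⟩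

theorem card_sylow (h : ¬ p ^ 2 ∣ Nat.card K) (h1 : p ∣ Nat.card K) (P : Sylow p K) :
    Nat.card P = p := by
  have h0 : Nat.card K ≠ 0 := Nat.card_pos.ne'
  have h2 : 1 ≤ (Nat.card K).factorization p :=
    (hp.out.dvd_iff_one_le_factorization h0).1 h1
  have h3 : ¬ 2 ≤ (Nat.card K).factorization p := fun h4 =>
    h ((hp.out.pow_dvd_iff_le_factorization h0).2 h4)
  have h4 : (Nat.card K).factorization p = 1 := by omega
  rw [P.card_eq_multiplicity, h4, pow_one]

theorem card_normalizer_eq (h : ¬ p ^ 2 ∣ Nat.card K) {P Q : Subgroup K} (hP : Nat.card P = p)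
    (hQ : Nat.card Q = p) :
    Nat.card (Subgroup.normalizer (P : Set K)) = Nat.card (Subgroup.normalizer (Q : Set K)) := by
  obtain ⟨S, rfl⟩ := exists_sylow_of_card h hP
  obtain ⟨T, rfl⟩ := exists_sylow_of_card h hQ
  have h1 : Nat.card (Sylow p K) =
      (Subgroup.normalizer ((S : Subgroup K) : Set K)).index := S.card_eq_index_normalizer
  have h1' : Nat.card (Sylow p K) =
      (Subgroup.normalizer ((T : Subgroup K) : Set K)).index := T.card_eq_index_normalizer
  have h2 := Subgroup.card_mul_index (Subgroup.normalizer ((S : Subgroup K) : Set K))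
  have h3 := Subgroup.card_mul_index (Subgroup.normalizer ((T : Subgroup K) : Set K))
  rw [← h1] at h2
  rw [← h1'] at h3
  exact Nat.eq_of_mul_eq_mul_right
    Nat.card_pos (h2.trans h3.symm)

omit [Finite K] in
/-- an element of order prime to the group order is trivial -/
theorem eq_one_of_pow {x : K} {n : ℕ} (h : x ^ n = 1) (hc : n.Coprime (Nat.card K)) : x = 1 := by
  have h1 := orderOf_dvd_of_pow_eq_one h
  have h2 := orderOf_dvd_natCard x
  exact orderOf_eq_one_iff.1 (Nat.eq_one_of_dvd_coprimes hc h1 h2)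

end Generic

theorem card_norm5 {K : Type*} [Group K] [Finite K] [Fact (Nat.Prime 5)] (h : Nat.card K = 120)
    {P : Subgroup K} (hP : Nat.card P = 5) :
    20 ≤ Nat.card (Subgroup.normalizer (P : Set K)) := by
  obtain ⟨S, rfl⟩ := exists_sylow_of_card (p := 5) (by rw [h]; norm_num) hP
  have h1 : Nat.card (Sylow 5 K) =
      (Subgroup.normalizer ((S : Subgroup K) : Set K)).index := S.card_eq_index_normalizer
  have h2 := card_sylow_modEq_one 5 K
  have h3 := S.card_dvd_index
  have h4 := Subgroup.card_mul_index (S : Subgroup K)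
  have h5 := Subgroup.card_mul_index (Subgroup.normalizer ((S : Subgroup K) : Set K))
  rw [hP, h] at h4
  have h6 : (S : Subgroup K).index = 24 := by omega
  rw [h6] at h3
  rw [h, ← h1] at h5
  have h7 : Nat.card (Sylow 5 K) ≤ 24 := Nat.le_of_dvd (by norm_num) h3
  set n := Nat.card (Sylow 5 K) with hn
  have h8 : n % 5 = 1 := h2
  have h9 : n ≤ 6 := by
    clear_value n
    clear h1 h2 hn h5
    interval_cases n <;> omega
  have h10 : Nat.card (Subgroup.normalizer ((S : Subgroup K) : Set K)) * 6 ≥ 120 := by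
    rw [← h5]
    exact Nat.mul_le_mul_left _ h9
  omega

theorem card_norm7 {K : Type*} [Group K] [Finite K] [Fact (Nat.Prime 7)] (h : Nat.card K = 168)
    {P : Subgroup K} (hP : Nat.card P = 7) :
    21 ≤ Nat.card (Subgroup.normalizer (P : Set K)) := by
  obtain ⟨S, rfl⟩ := exists_sylow_of_card (p := 7) (by rw [h]; norm_num) hP
  have h1 : Nat.card (Sylow 7 K) =
      (Subgroup.normalizer ((S : Subgroup K) : Set K)).index := S.card_eq_index_normalizer
  have h2 := card_sylow_modEq_one 7 K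
  have h3 := S.card_dvd_index
  have h4 := Subgroup.card_mul_index (S : Subgroup K)
  have h5 := Subgroup.card_mul_index (Subgroup.normalizer ((S : Subgroup K) : Set K))
  rw [hP, h] at h4
  have h6 : (S : Subgroup K).index = 24 := by omega
  rw [h6] at h3
  rw [h, ← h1] at h5
  have h7 : Nat.card (Sylow 7 K) ≤ 24 := Nat.le_of_dvd (by norm_num) h3
  set n := Nat.card (Sylow 7 K) with hn
  have h8 : n % 7 = 1 := h2
  have h9 : n ≤ 8 := by
    clear_value n
    clear h1 h2 hn h5
    interval_cases n <;> omega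
  have h10 : Nat.card (Subgroup.normalizer ((S : Subgroup K) : Set K)) * 8 ≥ 168 := by
    rw [← h5]
    exact Nat.mul_le_mul_left _ h9
  omega

/-! ### the Sylow subgroups of `M` -/

variable {G : Type*} [Group G] [Finite G] (C : J4Type.Compl G)

theorem card_MM' : Nat.card (MM C) = 2 ^ 21 * 3 ^ 2 * 5 * 7 := by
  rw [card_MM]
  norm_num

theorem card_ker : Nat.card (Θ C).ker = 2 ^ 15 := by
  rw [← card_L C]
  exact (Subgroup.card_map_of_injective (MM C).subtype_injective).symm

theorem card_aut : Nat.card (MulAut (D C)) = 168 := (oct_D C).card_aut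

theorem card_perm : Nat.card (Equiv.Perm (Fin 5)) = 120 := by
  rw [Nat.card_eq_fintype_card, Fintype.card_perm, Fintype.card_fin]
  rfl

theorem finite_aut : Finite (MulAut (D C)) := (oct_D C).finite_aut

/-- elements of odd prime order are not in the kernel -/
theorem eq_one_of_ker {x : MM C} {n : ℕ} (hn : n.Coprime 2) (hx : x ^ n = 1) (h : Θ C x = 1) :
    x = 1 := by
  have h1 : (⟨x, h⟩ : (Θ C).ker) = 1 := by
    apply eq_one_of_pow (n := n) (Subtype.ext hx)
    rw [card_ker]
    exact hn.pow_right 15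
  exact congrArg Subtype.val h1

theorem pow_card {K : Type*} [Group K] {P : Subgroup K} {n : ℕ} (hP : Nat.card P = n) {x : K}
    (hx : x ∈ P) : x ^ n = 1 := by
  have h := pow_card_eq_one' (x := (⟨x, hx⟩ : P))
  rw [hP] at h
  exact congrArg Subtype.val h

section Five

variable {P : Subgroup (MM C)} (hP : Nat.card P = 5)

include hP

theorem ψ_five {x : MM C} (hx : x ∈ P) : ψ C x = 1 := by
  have := finite_aut C
  apply eq_one_of_pow (n := 5)
  · rw [← map_pow, pow_card hP hx, map_one]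
  · rw [card_aut]
    norm_num

theorem χ_five_inj {x : MM C} (hx : x ∈ P) (h : χ C x = 1) : x = 1 := by
  apply eq_one_of_ker C (n := 5) (by norm_num) (pow_card hP hx)
  show (χ C x, ψ C x) = 1
  rw [h, ψ_five C hP hx]
  rfl

theorem card_map_five : Nat.card (P.map (χ C)) = 5 := by
  refine Eq.trans ?_ hP
  refine (Nat.card_congr (Equiv.ofBijective
    (fun x : P => (⟨χ C x, Subgroup.mem_map_of_mem _ x.2⟩ : P.map (χ C))) ⟨?_, ?_⟩)).symm
  · intro x y h
    have h1 : χ C x = χ C y := congrArg Subtype.val h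
    have h2 := χ_five_inj C hP (x := (x : MM C) * (y : MM C)⁻¹) (mul_mem x.2 (inv_mem y.2))
      (by rw [map_mul, map_inv, h1, mul_inv_cancel])
    exact Subtype.ext (mul_inv_eq_one.1 h2)
  · rintro ⟨_, x, hx, rfl⟩
    exact ⟨⟨x, hx⟩, rfl⟩

theorem map_Θ_five : P.map (Θ C) = (P.map (χ C)).prod ⊥ := by
  ext ⟨σ, f⟩
  rw [Subgroup.mem_prod]
  constructor
  · rintro ⟨x, hx, h⟩
    have h1 : (χ C x, ψ C x) = (σ, f) := h
    rw [Prod.mk.injEq] at h1
    refine ⟨⟨x, hx, h1.1⟩, ?_⟩
    rw [Subgroup.mem_bot]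
    show f = 1
    rw [← h1.2, ψ_five C hP hx]
  · rintro ⟨⟨x, hx, h⟩, h2⟩
    rw [Subgroup.mem_bot] at h2
    refine ⟨x, hx, ?_⟩
    show (χ C x, ψ C x) = (σ, f)
    change f = 1 at h2
    rw [h2, ψ_five C hP hx]
    exact Prod.ext h rfl

theorem D_le_cent_five {x : MM C} (hx : x ∈ P) {d : G} (hd : d ∈ D C) :
    (x : G) * d = d * x := by
  have h := (mem_ker_ψ C x).1 (ψ_five C hP hx)
  exact (Subgroup.mem_centralizer_iff.1 (Subgroup.mem_subgroupOf.1 h) d hd).symm

end Five

section Seven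

variable {P : Subgroup (MM C)} (hP : Nat.card P = 7)

include hP

omit [Finite G] in
theorem χ_seven {x : MM C} (hx : x ∈ P) : χ C x = 1 := by
  apply eq_one_of_pow (n := 7)
  · rw [← map_pow, pow_card hP hx, map_one]
  · rw [card_perm]
    norm_num

theorem ψ_seven_inj {x : MM C} (hx : x ∈ P) (h : ψ C x = 1) : x = 1 := by
  apply eq_one_of_ker C (n := 7) (by norm_num) (pow_card hP hx)
  show (χ C x, ψ C x) = 1
  rw [h, χ_seven C hP hx]
  rfl

theorem card_map_seven : Nat.card (P.map (ψ C)) = 7 := by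
  rw [← hP]
  refine (Nat.card_congr (Equiv.ofBijective
    (fun x : P => (⟨ψ C x, Subgroup.mem_map_of_mem _ x.2⟩ : P.map (ψ C))) ⟨?_, ?_⟩)).symm
  · intro x y h
    have h1 : ψ C x = ψ C y := congrArg Subtype.val h
    have h2 := ψ_seven_inj C hP (x := (x : MM C) * (y : MM C)⁻¹) (mul_mem x.2 (inv_mem y.2))
      (by rw [map_mul, map_inv, h1, mul_inv_cancel])
    exact Subtype.ext (mul_inv_eq_one.1 h2)
  · rintro ⟨_, x, hx, rfl⟩
    exact ⟨⟨x, hx⟩, rfl⟩

omit [Finite G] in
theorem map_Θ_seven : P.map (Θ C) = Subgroup.prod ⊥ (P.map (ψ C)) := by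
  ext ⟨σ, f⟩
  rw [Subgroup.mem_prod]
  constructor
  · rintro ⟨x, hx, h⟩
    have h1 : (χ C x, ψ C x) = (σ, f) := h
    rw [Prod.mk.injEq] at h1
    refine ⟨?_, ⟨x, hx, h1.2⟩⟩
    rw [Subgroup.mem_bot]
    show σ = 1
    rw [← h1.1, χ_seven C hP hx]
  · rintro ⟨h2, ⟨x, hx, h⟩⟩
    rw [Subgroup.mem_bot] at h2
    refine ⟨x, hx, ?_⟩
    show (χ C x, ψ C x) = (σ, f)
    change σ = 1 at h2
    rw [h2, χ_seven C hP hx]
    exact Prod.ext rfl h

end Seven

/-! ### the normalisers in `M` -/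

theorem not_sq_dvd5 : ¬ 5 ^ 2 ∣ Nat.card (MM C) := by
  rw [card_MM']
  norm_num

theorem not_sq_dvd7 : ¬ 7 ^ 2 ∣ Nat.card (MM C) := by
  rw [card_MM']
  norm_num

/-- the restriction of `Θ` to the normaliser of `P` -/
noncomputable def ΘN (P : Subgroup (MM C)) :
    Subgroup.normalizer (P : Set (MM C)) →* Equiv.Perm (Fin 5) × MulAut (D C) :=
  (Θ C).comp (Subgroup.normalizer (P : Set (MM C))).subtype

theorem range_ΘN {p : ℕ} [Fact p.Prime] (h : ¬ p ^ 2 ∣ Nat.card (MM C)) {P : Subgroup (MM C)}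
    (hP : Nat.card P = p) :
    (ΘN C P).range = Subgroup.normalizer ((P.map (Θ C) : Subgroup _) : Set _) := by
  obtain ⟨S, rfl⟩ := exists_sylow_of_card h hP
  apply le_antisymm
  · rintro _ ⟨n, rfl⟩
    exact Subgroup.le_normalizer_map (Θ C) ⟨(n : MM C), n.2, rfl⟩
  · intro y hy
    obtain ⟨n, hn, rfl⟩ := SylowThree.exists_normalizer (Θ C) (Θ_surj C) S hy
    exact ⟨⟨n, hn⟩, rfl⟩

omit [Finite G] in
theorem card_norm_eq (P : Subgroup (MM C)) :
    Nat.card (ΘN C P).ker * Nat.card (ΘN C P).range =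
      Nat.card (Subgroup.normalizer (P : Set (MM C))) := by
  have := Subgroup.card_mul_index (ΘN C P).ker
  rwa [Subgroup.index_ker] at this

theorem mem_normalizer_prod {A B : Type*} [Group A] [Group B] {P : Subgroup A} {Q : Subgroup B}
    {a : A} {b : B} (ha : a ∈ Subgroup.normalizer (P : Set A))
    (hb : b ∈ Subgroup.normalizer (Q : Set B)) :
    (a, b) ∈ Subgroup.normalizer ((P.prod Q : Subgroup (A × B)) : Set (A × B)) := by
  rw [Subgroup.mem_normalizer_iff] at *
  rintro ⟨x, y⟩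
  rw [Subgroup.mem_prod, Subgroup.mem_prod]
  exact and_congr (ha x) (hb y)

theorem card_range_five {P : Subgroup (MM C)} (hP : Nat.card P = 5) :
    20 * 168 ≤ Nat.card (ΘN C P).range ∧ 168 ∣ Nat.card (ΘN C P).range := by
  have : Fact (Nat.Prime 5) := ⟨by norm_num⟩
  have := finite_aut C
  rw [range_ΘN C (not_sq_dvd5 C) hP, map_Θ_five C hP]
  set N := Subgroup.normalizer (((P.map (χ C)).prod (⊥ : Subgroup (MulAut (D C))) :
    Subgroup (Equiv.Perm (Fin 5) × MulAut (D C))) : Set (Equiv.Perm (Fin 5) × MulAut (D C))) with hN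
  have h1 : (Subgroup.normalizer ((P.map (χ C) : Subgroup _) : Set _)).prod ⊤ ≤ N := by
    rintro ⟨a, b⟩ h
    rw [Subgroup.mem_prod] at h
    exact mem_normalizer_prod h.1 (by rw [Subgroup.normalizer_eq_top]; trivial)
  have h2 : (⊥ : Subgroup (Equiv.Perm (Fin 5))).prod (⊤ : Subgroup (MulAut (D C))) ≤ N := by
    refine le_trans ?_ h1
    exact Subgroup.prod_mono bot_le le_rfl
  constructor
  · refine le_trans ?_ (Subgroup.card_le_of_le h1)
    rw [Nat.card_congr (Subgroup.prodEquiv _ _).toEquiv, Nat.card_prod, Subgroup.card_top,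
      card_aut]
    exact Nat.mul_le_mul_right _ (card_norm5 card_perm (card_map_five C hP))
  · refine dvd_trans ?_ (Subgroup.card_dvd_of_le h2)
    rw [Nat.card_congr (Subgroup.prodEquiv _ _).toEquiv, Nat.card_prod, Subgroup.card_top,
      card_aut, Subgroup.card_bot, one_mul]

theorem card_range_seven {P : Subgroup (MM C)} (hP : Nat.card P = 7) :
    120 * 21 ≤ Nat.card (ΘN C P).range := by
  have : Fact (Nat.Prime 7) := ⟨by norm_num⟩
  have := finite_aut C
  rw [range_ΘN C (not_sq_dvd7 C) hP, map_Θ_seven C hP]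
  set N := Subgroup.normalizer (((⊥ : Subgroup (Equiv.Perm (Fin 5))).prod (P.map (ψ C)) :
    Subgroup (Equiv.Perm (Fin 5) × MulAut (D C))) : Set (Equiv.Perm (Fin 5) × MulAut (D C))) with hN
  have h1 : (⊤ : Subgroup (Equiv.Perm (Fin 5))).prod
      (Subgroup.normalizer ((P.map (ψ C) : Subgroup _) : Set _)) ≤ N := by
    rintro ⟨a, b⟩ h
    rw [Subgroup.mem_prod] at h
    exact mem_normalizer_prod (by rw [Subgroup.normalizer_eq_top]; trivial) h.2
  refine le_trans ?_ (Subgroup.card_le_of_le h1)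
  rw [Nat.card_congr (Subgroup.prodEquiv _ _).toEquiv, Nat.card_prod, Subgroup.card_top, card_perm]
  exact Nat.mul_le_mul_left _ (card_norm7 (card_aut C) (card_map_seven C hP))

omit [Finite G] in
theorem D_mem_MM {d : G} (hd : d ∈ D C) : d ∈ MM C := L_le C (D_le_L C hd)

theorem D_mem_norm_five {P : Subgroup (MM C)} (hP : Nat.card P = 5) {d : G} (hd : d ∈ D C) :
    (⟨d, D_mem_MM C hd⟩ : MM C) ∈ Subgroup.normalizer (P : Set (MM C)) := by
  apply Subgroup.mem_normalizer_fintype
  intro x hx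
  have hc : (⟨d, D_mem_MM C hd⟩ : MM C) * x * (⟨d, D_mem_MM C hd⟩ : MM C)⁻¹ = x := by
    rw [mul_inv_eq_iff_eq_mul]
    exact Subtype.ext (D_le_cent_five C hP hx hd).symm
  rw [hc]
  exact hx

omit [Finite G] in
theorem Θ_of_D {d : G} (hd : d ∈ L C) : Θ C ⟨d, L_le C hd⟩ = 1 := by
  obtain ⟨h, h1, h2⟩ := (mem_L C).1 hd
  show (χ C _, ψ C _) = 1
  rw [Prod.mk_eq_one]
  exact ⟨h1, h2⟩

theorem card_ker_five {P : Subgroup (MM C)} (hP : Nat.card P = 5) :
    8 ≤ Nat.card (ΘN C P).ker := by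
  rw [← card_D C]
  apply Nat.card_le_card_of_injective (fun d : D C =>
    (⟨⟨⟨d, D_mem_MM C d.2⟩, D_mem_norm_five C hP d.2⟩, Θ_of_D C (D_le_L C d.2)⟩ : (ΘN C P).ker))
  intro a b h
  exact Subtype.ext (congrArg (fun x : (ΘN C P).ker =>
    (((x : Subgroup.normalizer (P : Set (MM C))) : MM C) : G)) h)

/-- the normaliser in `M` of a subgroup of order 5 -/
theorem norm_five {P : Subgroup (MM C)} (hP : Nat.card P = 5) :
    26880 ≤ Nat.card (Subgroup.normalizer (P : Set (MM C))) ∧
      7 ∣ Nat.card (Subgroup.normalizer (P : Set (MM C))) := by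
  obtain ⟨h1, h2⟩ := card_range_five C hP
  have h3 := card_ker_five C hP
  rw [← card_norm_eq C P]
  refine ⟨?_, ?_⟩
  · calc 26880 = 8 * (20 * 168) := by norm_num
      _ ≤ _ := Nat.mul_le_mul h3 h1
  · exact dvd_mul_of_dvd_right ((show 7 ∣ 168 by norm_num).trans h2) _

/-- the normaliser in `M` of a subgroup of order 7 -/
theorem norm_seven {P : Subgroup (MM C)} (hP : Nat.card P = 7) :
    2520 ≤ Nat.card (Subgroup.normalizer (P : Set (MM C))) := by
  have h1 := card_range_seven C hP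
  have h3 : 1 ≤ Nat.card (ΘN C P).ker := Nat.card_pos
  rw [← card_norm_eq C P]
  calc 2520 = 1 * (120 * 21) := by norm_num
    _ ≤ _ := Nat.mul_le_mul h3 h1

end Cfsg.Agent.H856.TrioP
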