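import Cfsg.Agent.H856.TrioL

/-!
# Groups of type J4: `L = O_2(M)` is special of order `2^15` with centre `D`
-/

set_option autoImplicit false

open scoped Pointwise commutatorElement

namespace Cfsg.Agent.H856.TrioS

open Cfsg Cfsg.Agent.SporadicA.GolayPerm Cfsg.Agent.SporadicA.GolayBase
open Cfsg.Agent.J4Type Cfsg.Agent.J4Type.CocodeMask Cfsg.Agent.J4Type.TauM24
open Cfsg.Agent.J4Type.TauP Cfsg.Agent.J4Type.TauF Cfsg.Agent.J4Type.TauCol
open Cfsg.Agent.J4Type.TauMask Cfsg.Agent.J4Type.TauCent Cfsg.Agent.J4Type.FrameDefs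
open Cfsg.Agent.J4Type.SplitData Cfsg.Agent.H856.TrioZ Cfsg.Agent.H856.TrioN
open Cfsg.Agent.H856.TrioL
open Cfsg.Agent.J4Type.HexPerms (hex0_isHex)

variable {G : Type*} [Group G] (C : J4Type.Compl G)

theorem mem_L_of {g : G} (hD : g ∈ Subgroup.centralizer (D C : Set G))
    (h : ∀ i a, a ∈ C.E (hx i) ↔ g * a * g⁻¹ ∈ C.E (hx i)) : g ∈ L C := by
  rw [mem_L]
  refine ⟨cent_le C hD, ?_, (mem_ker_ψ C _).2 hD⟩
  ext i
  rw [χ_eq C (h i)]
  rfl

/-- `E_i ∩ Q ≤ L` -/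
theorem A_le_L (i : Fin 5) {a : G} (ha : a ∈ C.E (hx i)) (hQ : a ∈ C.Q) : a ∈ L C := by
  have hz : a ∈ Subgroup.centralizer ({C.z} : Set G) := mem_C_of_E C (isHex_hx i) ha
  have hP : C.P ⟨a, hz⟩ = 1 := (C.P_ker _).2 ⟨a, hQ, 0, by rw [pow_zero, mul_one]⟩
  refine mem_L_of C (E_le_cent C i ha) fun j b => ?_
  have := C.E_conj (hx j) (isHex_hx j) ⟨a, hz⟩ b
  rwa [hP, one_smul] at this

theorem D_le_L : D C ≤ L C := by
  intro d hd
  refine mem_L_of C (Subgroup.mem_centralizer_iff.2 fun x hx => D_comm C hx hd) fun i a => ?_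
  have hE := C.E_elem (hx i) (isHex_hx i)
  have h1 : ∀ a ∈ C.E (hx i), d * a * d⁻¹ = a := fun a ha => by
    rw [hE.2 d (D_le C i hd) a ha, mul_inv_cancel_right]
  constructor
  · intro ha
    rwa [h1 a ha]
  · intro ha
    have h2 := h1 _ ha
    have h3 : d * a * d⁻¹ = a := by
      have : a = d⁻¹ * (d * (d * a * d⁻¹) * d⁻¹) * d := by
        rw [h2]
        group
      calc d * a * d⁻¹ = d * (d * a * d⁻¹) * d⁻¹ := h2.symm
        _ = d * (d * a * d⁻¹) * d⁻¹ := rfl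
        _ = a := by
          have h4 : d * (d * a * d⁻¹) * d⁻¹ = (d * d) * a * (d * d)⁻¹ := by group
          rw [h4, (oct_D C).sq d hd, one_mul, inv_one, mul_one]
    rwa [h3] at ha

/-! ### the action of `E hex0` -/

/-- elements of `E hex0` as elements of `M` -/
noncomputable def inE : C.E hex0 →* MM C := Subgroup.inclusion (E_le_MM C)

theorem χ_E_zero (e : C.E hex0) : χ C (inE C e) 0 = 0 :=
  (mem_normalizer_E C).1 (E_le C.toFrame e.2)

theorem exists_E_χ {j : Fin 5} (h0 : j ≠ 0) : ∃ e : C.E hex0, χ C (inE C e) 1 = j := by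
  have hi : hex0 ∩ hx 1 = hex0 ∩ hx j := by
    rw [← hx_zero, hx_inter (by decide), hx_inter (Ne.symm h0)]
  obtain ⟨a, ha, hP⟩ := exists_E_smul C (isHex_hx 1) (isHex_hx j) hi
    (by rw [← hx_zero]; exact hx_inter_card (by decide))
  exact ⟨⟨a, ha⟩, χ_of_P C (c := a) rfl hP⟩

theorem inE_comm (e f : C.E hex0) : inE C e * inE C f = inE C f * inE C e :=
  Subtype.ext ((C.E_elem hex0 hex0_isHex).2 e e.2 f f.2)

theorem χ_E_eq_one {e : C.E hex0} (h : χ C (inE C e) 1 = 1) : χ C (inE C e) = 1 := by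
  ext j
  congr 1
  by_cases h0 : j = 0
  · rw [h0, χ_E_zero]
    rfl
  · obtain ⟨f, hf⟩ := exists_E_χ C h0
    have h1 : χ C (inE C e) (χ C (inE C f) 1) = χ C (inE C f) (χ C (inE C e) 1) := by
      rw [← Equiv.Perm.mul_apply, ← Equiv.Perm.mul_apply, ← map_mul (χ C), ← map_mul (χ C), inE_comm]
    rw [hf, h, hf] at h1
    rw [h1]
    rfl

theorem mem_L_iff_E (e : C.E hex0) : (e : G) ∈ L C ↔ χ C (inE C e) = 1 := by
  rw [mem_L]
  constructor
  · rintro ⟨h, h1, -⟩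
    exact h1
  · intro h
    refine ⟨E_le_MM C e.2, h, (mem_ker_ψ C _).2 ?_⟩
    have := E_le_cent C 0
    rw [hx_zero] at this
    exact this e.2

theorem card_EL [Finite G] : Nat.card ((L C).subgroupOf (C.E hex0)) = 2 ^ 9 := by
  let _ : MulAction (C.E hex0) (Fin 5) := MulAction.compHom _ ((χ C).comp (inE C))
  have hsm : ∀ (e : C.E hex0) (i : Fin 5), e • i = χ C (inE C e) i := fun e i => rfl
  have horb : MulAction.orbit (C.E hex0) (1 : Fin 5) = {j | j ≠ 0} := by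
    ext j
    constructor
    · rintro ⟨e, he⟩ h0
      change χ C (inE C e) 1 = j at he
      rw [h0] at he
      have h1 := (χ C (inE C e)).injective (he.trans (χ_E_zero C e).symm)
      revert h1
      decide
    · intro hj
      exact exists_E_χ C hj
  have h1 := MulAction.index_stabilizer (G := C.E hex0) (1 : Fin 5)
  have h2 : ({j | j ≠ 0} : Set (Fin 5)).ncard = 4 := by
    rw [Set.ncard_eq_toFinset_card']
    decide
  rw [horb, h2] at h1
  have h3 := Subgroup.card_mul_index (MulAction.stabilizer (C.E hex0) (1 : Fin 5))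
  rw [h1, C.E_card hex0 hex0_isHex] at h3
  have h4 : MulAction.stabilizer (C.E hex0) (1 : Fin 5) = (L C).subgroupOf (C.E hex0) := by
    ext e
    rw [MulAction.mem_stabilizer_iff, Subgroup.mem_subgroupOf, mem_L_iff_E, hsm]
    exact ⟨χ_E_eq_one C, fun h => by rw [h]; rfl⟩
  rw [← h4]
  omega

theorem exists_MM_χ (i : Fin 5) : ∃ g : MM C, χ C g 0 = i := by
  obtain ⟨g, -, h⟩ := exists_χ_zero C i
  exact ⟨g, h⟩

/-! ### the structure of `L` -/

/-- `E_i ∩ L` as a subgroup of `L` -/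
noncomputable abbrev Li (i : Fin 5) : Subgroup (L C) := (C.E (hx i)).subgroupOf (L C)

/-- `D` as a subgroup of `L` -/
noncomputable abbrev DL : Subgroup (L C) := (D C).subgroupOf (L C)

theorem card_DL : Nat.card (DL C) = 8 := by
  rw [← card_D C]
  exact Nat.card_congr (Subgroup.subgroupOfEquivOfLe (D_le_L C)).toEquiv

theorem card_Li [Finite G] (i : Fin 5) : Nat.card (Li C i) = 2 ^ 9 := by
  rw [← card_EL C]
  obtain ⟨g, hg⟩ := exists_MM_χ C i
  have hsp := χ_spec C g 0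
  rw [hg, hx_zero] at hsp
  have hgi : ∀ x : G, (g : G) * ((g : G)⁻¹ * x * g) * (g : G)⁻¹ = x := fun x => by group
  refine (Nat.card_congr (Equiv.ofBijective (fun e : (L C).subgroupOf (C.E hex0) =>
    (⟨⟨(g : G) * ((e : C.E hex0) : G) * (g : G)⁻¹, conj_mem_L C g.2 e.2⟩,
      (hsp _).1 (e : C.E hex0).2⟩ : Li C i)) ⟨?_, ?_⟩)).symm
  · intro a b h
    have h1 : (g : G) * ((a : C.E hex0) : G) * (g : G)⁻¹ = g * ((b : C.E hex0) : G) * (g : G)⁻¹ :=
      congrArg (fun x : Li C i => ((x : L C) : G)) h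
    exact Subtype.ext (Subtype.ext (mul_left_cancel (mul_right_cancel h1)))
  · rintro ⟨⟨x, hxL⟩, hxE⟩
    have h1 : (g : G)⁻¹ * x * g ∈ C.E hex0 := (hsp _).2 (by rw [hgi]; exact hxE)
    have h2 : (g : G)⁻¹ * x * g ∈ L C := by
      have := conj_mem_L C (inv_mem g.2) hxL
      rwa [inv_inv] at this
    exact ⟨⟨⟨_, h1⟩, h2⟩, Subtype.ext (Subtype.ext (hgi x))⟩

theorem Li_inf {i j : Fin 5} (h : i ≠ j) : Li C i ⊓ Li C j = DL C := by
  rw [Li, Li, DL, Subgroup.subgroupOf, Subgroup.subgroupOf, Subgroup.subgroupOf,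
    ← Subgroup.comap_inf, D_eq_hx C h]

theorem Li_normal (i : Fin 5) : (Li C i).Normal := by
  refine ⟨fun n hn g => ?_⟩
  exact (L_conj_E C g.2 i n).1 hn

theorem Li_sup [Finite G] {i j : Fin 5} (h : i ≠ j) : Li C i ⊔ Li C j = ⊤ := by
  have := Li_normal C j
  apply Subgroup.eq_top_of_card_eq
  have h1 := StdL2.G23Coset.card_sup_mul_card_inf (H := Li C i) (N := Li C j)
    (by rw [Subgroup.normalizer_eq_top]; exact le_top)
  rw [Li_inf C h, card_DL, card_Li, card_Li] at h1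
  rw [card_L]
  omega

theorem DL_normal : (DL C).Normal := by
  refine ⟨fun n hn g => ?_⟩
  have h : (g : G) * (n : G) = n * g := L_comm_D C g.2 hn
  show (g : G) * n * (g : G)⁻¹ ∈ D C
  rw [h, mul_inv_cancel_right]
  exact hn

theorem exists_mul [Finite G] (x : L C) : ∃ a ∈ Li C 0, ∃ b ∈ Li C 1, a * b = x := by
  have := Li_normal C 1
  have h1 : x ∈ (Li C 0 ⊔ Li C 1 : Subgroup (L C)) := by
    rw [Li_sup C (by decide)]
    trivial
  have h2 : x ∈ ((Li C 0 ⊔ Li C 1 : Subgroup (L C)) : Set (L C)) := h1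
  rw [Subgroup.mul_normal] at h2
  exact Set.mem_mul.1 h2

/-- elements of `L_0` and `L_1` commute modulo `D` -/
theorem comm_mod {a b : L C} (ha : a ∈ Li C 0) (hb : b ∈ Li C 1) : ⁅a, b⁆ ∈ DL C := by
  have h0 := Li_normal C 0
  have h1 := Li_normal C 1
  rw [← Li_inf C (i := 0) (j := 1) (by decide)]
  exact Subgroup.commutator_le_inf _ _ (Subgroup.commutator_mem_commutator ha hb)

theorem Li_comm (i : Fin 5) {a b : L C} (ha : a ∈ Li C i) (hb : b ∈ Li C i) : a * b = b * a :=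
  Subtype.ext ((C.E_elem (hx i) (isHex_hx i)).2 a ha b hb)

theorem Li_sq (i : Fin 5) {a : L C} (ha : a ∈ Li C i) : a * a = 1 :=
  Subtype.ext ((C.E_elem (hx i) (isHex_hx i)).1 a ha)

theorem commute_quot [Finite G] [(DL C).Normal] (x y : L C) :
    Commute (x : L C ⧸ DL C) (y : L C ⧸ DL C) := by
  obtain ⟨a, ha, b, hb, rfl⟩ := exists_mul C x
  obtain ⟨a', ha', b', hb', rfl⟩ := exists_mul C y
  have key : ∀ a b : L C, ⁅a, b⁆ ∈ DL C → Commute (a : L C ⧸ DL C) (b : L C ⧸ DL C) := by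
    intro a b h
    rw [commute_iff_eq, ← QuotientGroup.mk_mul, ← QuotientGroup.mk_mul, QuotientGroup.eq]
    have h2 : (a * b)⁻¹ * (b * a) = (a * b)⁻¹ * (⁅a, b⁆)⁻¹ * (a * b)⁻¹⁻¹ := by
      rw [commutatorElement_def]
      group
    rw [h2]
    exact (DL_normal C).conj_mem _ (inv_mem h) _
  have k1 : ∀ i, ∀ a ∈ Li C i, ∀ b ∈ Li C i, Commute (a : L C ⧸ DL C) (b : L C ⧸ DL C) := by
    intro i a ha b hb
    rw [commute_iff_eq, ← QuotientGroup.mk_mul, ← QuotientGroup.mk_mul, Li_comm C i ha hb]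
  rw [QuotientGroup.mk_mul, QuotientGroup.mk_mul]
  exact ((k1 0 a ha a' ha').mul_left (key a' b (comm_mod C ha' hb)).symm).mul_right
    ((key a b' (comm_mod C ha hb')).mul_left (k1 1 b hb b' hb'))

theorem commutator_le [Finite G] : commutator (L C) ≤ DL C := by
  have := DL_normal C
  rw [commutator_def, Subgroup.commutator_le]
  intro x _ y _
  rw [← QuotientGroup.eq_one_iff, commutatorElement_def]
  have h := commute_quot C x y
  show ((x : L C ⧸ DL C) * y * (x : L C ⧸ DL C)⁻¹ * (y : L C ⧸ DL C)⁻¹) = 1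
  rw [h.eq]
  group

theorem sq_mem [Finite G] (x : L C) : x ^ 2 ∈ DL C := by
  have := DL_normal C
  obtain ⟨a, ha, b, hb, rfl⟩ := exists_mul C x
  rw [← QuotientGroup.eq_one_iff, pow_two]
  have h := commute_quot C a b
  show ((a : L C ⧸ DL C) * b * ((a : L C ⧸ DL C) * b)) = 1
  rw [h.symm.mul_mul_mul_comm, ← QuotientGroup.mk_mul, ← QuotientGroup.mk_mul, Li_sq C 0 ha,
    Li_sq C 1 hb, ← QuotientGroup.mk_mul, one_mul]
  rfl

theorem center_eq [Finite G] : Subgroup.center (L C) = DL C := by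
  apply le_antisymm
  · intro x hx'
    rw [Subgroup.mem_center_iff] at hx'
    have h1 : ∀ i, (x : G) ∈ C.E (hx i) := by
      intro i
      apply C.A_cent (hx i) (isHex_hx i)
      intro a ha haQ
      exact (congrArg Subtype.val (hx' ⟨a, A_le_L C i ha haQ⟩)).symm
    show (x : G) ∈ D C
    rw [← D_eq_hx C (i := 0) (j := 1) (by decide)]
    exact ⟨h1 0, h1 1⟩
  · intro d hd
    rw [Subgroup.mem_center_iff]
    intro x
    exact Subtype.ext (L_comm_D C x.2 hd)

/-! ### the commutator subgroup -/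

theorem conj_mem_comm {g : G} (hg : g ∈ MM C) {k : G} (hk : k ∈ ⁅L C, L C⁆) :
    g * k * g⁻¹ ∈ ⁅L C, L C⁆ := by
  have h1 : (L C).map (MulAut.conj g).toMonoidHom ≤ L C := by
    rintro _ ⟨x, hx, rfl⟩
    exact conj_mem_L C hg hx
  have h2 : (⁅L C, L C⁆).map (MulAut.conj g).toMonoidHom ≤ ⁅L C, L C⁆ := by
    rw [Subgroup.map_commutator]
    exact Subgroup.commutator_mono h1 h1
  exact h2 (Subgroup.mem_map_of_mem _ hk)

theorem exists_comm_ne [Finite G] : ∃ k ∈ ⁅L C, L C⁆, k ≠ 1 := by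
  by_contra h
  push Not at h
  have hc : Subgroup.center (L C) = ⊤ := by
    rw [eq_top_iff]
    intro x _
    rw [Subgroup.mem_center_iff]
    intro y
    have h1 := h _ (Subgroup.commutator_mem_commutator y.2 x.2)
    rw [commutatorElement_eq_one_iff_mul_comm] at h1
    exact Subtype.ext h1
  have h8 := card_DL C
  rw [← center_eq, hc, Subgroup.card_top, card_L] at h8
  norm_num at h8

theorem comm_le_D [Finite G] : ⁅L C, L C⁆ ≤ D C := by
  rw [← Subgroup.map_subtype_commutator]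
  rintro _ ⟨k, hk, rfl⟩
  exact commutator_le C hk

theorem z_mem_comm [Finite G] : C.z ∈ ⁅L C, L C⁆ := by
  obtain ⟨k, hk, hk1⟩ := exists_comm_ne C
  obtain ⟨w, hw, rfl⟩ := exists_c_of_D C (comm_le_D C hk)
  have hw0 : w ≠ 0 := by
    rintro rfl
    exact hk1 (c_zero C.toFrame)
  obtain ⟨i, hi⟩ := et_pow_zm w hw hw0
  have h1 := φ_c C (et ^ i) ev_zm
  rw [hi, FrameInput.c_zm] at h1
  have h2 := conj_mem_comm C (inv_mem (φ_mem_MM C (KT_pow et_mem i))) hk
  rw [← h1] at h2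
  have h3 : (C.φ (et ^ i))⁻¹ * (C.φ (et ^ i) * C.z * (C.φ (et ^ i))⁻¹) * (C.φ (et ^ i))⁻¹⁻¹ =
      C.z := by group
  rwa [h3] at h2

theorem comm_eq_D [Finite G] : ⁅L C, L C⁆ = D C := by
  apply le_antisymm (comm_le_D C)
  intro d hd
  obtain ⟨w, hw, rfl⟩ := exists_c_of_D C hd
  by_cases hw0 : w = 0
  · rw [hw0, c_zero C.toFrame]
    exact one_mem _
  · obtain ⟨i, hi⟩ := et_pow_zm w hw hw0
    have h1 := φ_c C (et ^ i) ev_zm
    rw [hi, FrameInput.c_zm] at h1
    rw [← h1]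
    exact conj_mem_comm C (φ_mem_MM C (KT_pow et_mem i)) (z_mem_comm C)

theorem commutator_eq [Finite G] : commutator (L C) = DL C := by
  apply Subgroup.map_injective (L C).subtype_injective
  rw [Subgroup.map_subtype_commutator, comm_eq_D, Subgroup.subgroupOf_map_subtype]
  exact (inf_eq_left.2 (D_le_L C)).symm

theorem isPGroup [Finite G] : IsPGroup 2 (L C) := IsPGroup.of_card (card_L C)

theorem isSpecial [Finite G] : IsSpecial 2 (L C) := by
  have : Fact (Nat.Prime 2) := ⟨Nat.prime_two⟩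
  refine ⟨isPGroup C, le_antisymm ?_ ?_, ?_⟩
  · rw [center_eq]
    exact Lib.FrattiniBasic.frattini_le_of_elementary (p := 2) (DL C) (commutator_le C) (sq_mem C)
  · rw [center_eq, ← commutator_eq]
    exact Lib.FrattiniBasic.commutator_le_frattini (isPGroup C)
  · rw [center_eq, commutator_eq]

theorem card_center [Finite G] : Nat.card (Subgroup.center (L C)) = 8 := by
  rw [center_eq, card_DL]

/-- an element normalising `L` normalises `D` -/
theorem conj_mem_D_of [Finite G] {g : G} (hg : ∀ x, x ∈ L C ↔ g * x * g⁻¹ ∈ L C) {d : G}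
    (hd : d ∈ D C) : g * d * g⁻¹ ∈ D C := by
  have h1 : g * d * g⁻¹ ∈ L C := (hg d).1 (D_le_L C hd)
  have h2 : (⟨_, h1⟩ : L C) ∈ Subgroup.center (L C) := by
    rw [Subgroup.mem_center_iff]
    rintro ⟨y, hy⟩
    apply Subtype.ext
    show y * (g * d * g⁻¹) = g * d * g⁻¹ * y
    have h3 : g⁻¹ * y * g ∈ L C := by
      rw [hg]
      have : g * (g⁻¹ * y * g) * g⁻¹ = y := by group
      rwa [this]
    have h4 := L_comm_D C h3 hd
    calc y * (g * d * g⁻¹) = g * ((g⁻¹ * y * g) * d) * g⁻¹ := by group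
      _ = g * (d * (g⁻¹ * y * g)) * g⁻¹ := by rw [h4]
      _ = _ := by group
  rw [center_eq] at h2
  exact h2

theorem normalizer_L [Finite G] : Subgroup.normalizer (L C : Set G) = MM C := by
  ext g
  rw [Subgroup.mem_normalizer_iff, mem_MM]
  constructor
  · intro h d
    refine ⟨conj_mem_D_of C h, fun h1 => ?_⟩
    have h2 : ∀ x, x ∈ L C ↔ g⁻¹ * x * g⁻¹⁻¹ ∈ L C := by
      intro x
      rw [h (g⁻¹ * x * g⁻¹⁻¹)]
      have : g * (g⁻¹ * x * g⁻¹⁻¹) * g⁻¹ = x := by group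
      rw [this]
    have h3 := conj_mem_D_of C h2 h1
    have : g⁻¹ * (g * d * g⁻¹) * g⁻¹⁻¹ = d := by group
    rwa [this] at h3
  · intro h x
    have hg : g ∈ MM C := (mem_MM C).2 h
    refine ⟨conj_mem_L C hg, fun h1 => ?_⟩
    have h2 := conj_mem_L C (inv_mem hg) h1
    have : g⁻¹ * (g * x * g⁻¹) * g⁻¹⁻¹ = x := by group
    rwa [this] at h2

/-- `L3(2)` as automorphism group of `D` -/
theorem aut_equiv [Finite G] :
    Nonempty (MulAut (D C) ≃* Matrix.SpecialLinearGroup (Fin 3) (ZMod 2)) := by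
  obtain ⟨e⟩ := StdL2.G23Aut.equiv_GL (V := D C)
    (fun v => Subtype.ext ((oct_D C).sq v v.2)) (card_D C)
  exact ⟨e.trans (MulEquiv.ofBijective _
    ⟨StdL2.G23Aut.toGL_injective, StdL2.G23Aut.toGL_surjective⟩).symm⟩

/-- the joint action, as a homomorphism on `N_G(L)` -/
noncomputable def Θ' [Finite G] : Subgroup.normalizer (L C : Set G) →*
    Equiv.Perm (Fin 5) × MulAut (D C) :=
  (Θ C).comp (MulEquiv.subgroupCongr (normalizer_L C)).toMonoidHom

theorem Θ'_surj [Finite G] : Function.Surjective (Θ' C) :=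
  (Θ_surj C).comp (MulEquiv.subgroupCongr (normalizer_L C)).surjective

theorem Θ'_ker [Finite G] :
    (Θ' C).ker = (L C).subgroupOf (Subgroup.normalizer (L C : Set G)) := by
  ext g
  rw [MonoidHom.mem_ker, Subgroup.mem_subgroupOf, mem_L]
  have hg : (g : G) ∈ MM C := (normalizer_L C) ▸ g.2
  have h1 : Θ' C g = (χ C ⟨g, hg⟩, ψ C ⟨g, hg⟩) := rfl
  rw [h1, Prod.mk_eq_one]
  exact ⟨fun h => ⟨hg, h⟩, fun ⟨_, h⟩ => h⟩

/-- `N(L)/L ≅ S5 × L3(2)` -/
theorem quot_equiv [Finite G] :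
    Nonempty (↥(Subgroup.normalizer (L C : Set G)) ⧸
      (L C).subgroupOf (Subgroup.normalizer (L C : Set G)) ≃*
      Equiv.Perm (Fin 5) × Matrix.SpecialLinearGroup (Fin 3) (ZMod 2)) := by
  obtain ⟨e⟩ := aut_equiv C
  exact ⟨((QuotientGroup.quotientMulEquivOfEq (Θ'_ker C).symm).trans
    (QuotientGroup.quotientKerEquivOfSurjective _ (Θ'_surj C))).trans
    ((MulEquiv.refl _).prodCongr e)⟩

/-- a subgroup `L3(2)` of `M` -/
theorem exists_K2 [Finite G] : ∃ K : Subgroup G, K ≤ MM C ∧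
    Nonempty (K ≃* Matrix.SpecialLinearGroup (Fin 3) (ZMod 2)) := by
  obtain ⟨e⟩ := aut_equiv C
  have hφ : Function.Injective C.φ := (injective_iff_map_eq_one _).2 fun g h => φ_inj C h
  refine ⟨TrioL32.Y.map C.φ, ?_, ⟨?_⟩⟩
  · rintro _ ⟨y, hy, rfl⟩
    exact φ_mem_MM C (TrioL32.Y_le hy)
  · exact ((TrioL32.Y.equivMapOfInjective C.φ hφ).symm.trans
      (MulEquiv.ofBijective _ (ψY_bij C))).trans e

end Cfsg.Agent.H856.TrioS
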