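import Cfsg.Agent.H856.TrioJ
import Cfsg.Agent.H856.Order40

/-!
# Groups of type J4: `O_2(M)` has no complement in `M`
-/

set_option autoImplicit false

open scoped Pointwise

namespace Cfsg.Agent.H856.TrioX

open Cfsg Cfsg.Agent.SporadicA.GolayPerm
open Cfsg.Agent.J4Type Cfsg.Agent.J4Type.CocodeMask Cfsg.Agent.J4Type.TauM24
open Cfsg.Agent.J4Type.TauMask Cfsg.Agent.J4Type.TauCent Cfsg.Agent.J4Type.FrameDefs
open Cfsg.Agent.J4Type.SplitData Cfsg.Agent.H856.TrioZ
open Cfsg.Agent.H856.TrioN Cfsg.Agent.H856.TrioL Cfsg.Agent.H856.TrioS Cfsg.Agent.H856.TrioP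
open Cfsg.Agent.H856.TrioJ

/-! ### the action of `L3(2)` on the masks -/

theorem LL_four : ∀ P ∈ TrioL32.LL, (∀ w ∈ Wm, (actT P)^[8] w = w) →
    ∀ w ∈ Wm, (actT P)^[4] w = w ∧
      w ^^^ actT P w ^^^ (actT P)^[2] w ^^^ (actT P)^[3] w = 0 := by
  decide +kernel

variable {G : Type*} [Group G] [Finite G] (C : J4Type.Compl G)

/-- the action of an automorphism of `D` on the masks -/
theorem exists_act (f : MulAut (D C)) : ∃ a : ℕ → ℕ, (∀ w ∈ Wm, a w ∈ Wm) ∧
    (∀ w (hw : w ∈ Wm), ((f ⟨c C.toFrame w, c_mem_D C hw⟩ : D C) : G) = c C.toFrame (a w)) ∧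
    ((∀ w ∈ Wm, a^[8] w = w) → ∀ w ∈ Wm, a^[4] w = w ∧ w ^^^ a w ^^^ a^[2] w ^^^ a^[3] w = 0) := by
  obtain ⟨y, hy⟩ := ψY_surj C f
  obtain ⟨P, hP, hT⟩ := TrioL32.mem_LL y.2
  have ha : act (y : M24) = actT P := funext fun s => act_eq hT s
  refine ⟨actT P, ?_, ?_, LL_four P hP⟩
  · intro w hw
    rw [← ha]
    exact act_mem_Wm _ (TrioL32.Y_le y.2) w hw
  · intro w hw
    rw [← hy, ← ha]
    exact φ_c C _ (ev_Wm hw)

/-- an automorphism of `D` whose order divides 8 has order dividing 4 -/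
theorem pow_four {f : MulAut (D C)} (h8 : f ^ 8 = 1) :
    f ^ 4 = 1 ∧ ∀ d : D C, d * f d * (f ^ 2) d * (f ^ 3) d = 1 := by
  obtain ⟨a, ha, hf, h4⟩ := exists_act C f
  have hit : ∀ n : ℕ, ∀ w ∈ Wm, a^[n] w ∈ Wm := by
    intro n
    induction n with
    | zero => exact fun w hw => hw
    | succ n ih =>
      intro w hw
      rw [Function.iterate_succ_apply']
      exact ha _ (ih w hw)
  have hpow : ∀ n : ℕ, ∀ w (hw : w ∈ Wm),
      (((f ^ n) ⟨c C.toFrame w, c_mem_D C hw⟩ : D C) : G) = c C.toFrame (a^[n] w) := by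
    intro n
    induction n with
    | zero => exact fun w hw => rfl
    | succ n ih =>
      intro w hw
      rw [pow_succ', MulAut.mul_apply, Function.iterate_succ_apply', ← hf _ (hit n w hw)]
      congr 2
      exact Subtype.ext (ih w hw)
  have hev : ∀ w ∈ Wm, ev w = true := fun w hw => ev_Wm hw
  have h5 : ∀ w ∈ Wm, a^[8] w = w := by
    intro w hw
    have h6 := hpow 8 w hw
    rw [h8] at h6
    exact (c_inj C.toFrame (hev w hw) (hev _ (hit 8 w hw)) h6).symm
  have h7 := h4 h5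
  refine ⟨?_, ?_⟩
  · ext d
    obtain ⟨w, hw, hd⟩ := exists_c_of_D C d.2
    have e : d = ⟨c C.toFrame w, c_mem_D C hw⟩ := Subtype.ext hd.symm
    rw [e, hpow 4 w hw, (h7 w hw).1]
    rfl
  · intro d
    obtain ⟨w, hw, hd⟩ := exists_c_of_D C d.2
    have e : d = ⟨c C.toFrame w, c_mem_D C hw⟩ := Subtype.ext hd.symm
    apply Subtype.ext
    have e1 := hpow 1 w hw
    rw [pow_one] at e1
    have ev1 := hev _ (ha w hw)
    have ev2 := hev _ (hit 2 w hw)
    have ev3 := hev _ (hit 3 w hw)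
    rw [e]
    show (c C.toFrame w : G) * ((f ⟨c C.toFrame w, c_mem_D C hw⟩ : D C) : G) *
      (((f ^ 2) ⟨c C.toFrame w, c_mem_D C hw⟩ : D C) : G) *
      (((f ^ 3) ⟨c C.toFrame w, c_mem_D C hw⟩ : D C) : G) = 1
    rw [e1, hpow 2 w hw, hpow 3 w hw, Function.iterate_one, ← c_xor C.toFrame (hev w hw) ev1,
      ← c_xor C.toFrame (ev_xor (hev w hw) ev1) ev2,
      ← c_xor C.toFrame (ev_xor (ev_xor (hev w hw) ev1) ev2) ev3, (h7 w hw).2, c_zero C.toFrame]

/-! ### the centraliser of an element of order 5 -/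

theorem card_ker_five' {P : Subgroup (MM C)} (hP : Nat.card P = 5) :
    Nat.card (ΘN C P).ker = 8 := by
  have h1 := card_norm_eq C P
  obtain ⟨h2, -⟩ := card_range_five C hP
  have h3 := card_ker_five C hP
  rw [card_norm_five C hP] at h1
  by_contra h4
  have h5 : 9 ≤ Nat.card (ΘN C P).ker := by omega
  have h6 := Nat.mul_le_mul h5 h2
  rw [h1] at h6
  norm_num at h6

/-- an element of `L` normalising a subgroup of order 5 of `M` lies in `D` -/
theorem mem_D_of_five {P : Subgroup (MM C)} (hP : Nat.card P = 5) {l : MM C}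
    (hl : l ∈ Subgroup.normalizer (P : Set (MM C))) (h1 : Θ C l = 1) : (l : G) ∈ D C := by
  let F : D C → (ΘN C P).ker := fun d =>
    ⟨⟨⟨d, D_mem_MM C d.2⟩, D_mem_norm_five C hP d.2⟩, Θ_of_D C (D_le_L C d.2)⟩
  have hF : Function.Injective F := by
    intro a b h
    exact Subtype.ext (congrArg (fun x : (ΘN C P).ker =>
      (((x : Subgroup.normalizer (P : Set (MM C))) : MM C) : G)) h)
  have hb : Function.Bijective F := by
    rw [Nat.bijective_iff_injective_and_card]
    exact ⟨hF, by rw [card_D, card_ker_five' C hP]⟩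
  obtain ⟨d, hd⟩ := hb.2 ⟨⟨l, hl⟩, h1⟩
  have h2 : (d : G) = l := congrArg (fun x : (ΘN C P).ker =>
      (((x : Subgroup.normalizer (P : Set (MM C))) : MM C) : G)) hd
  rw [← h2]
  exact d.2

/-- a 5-cycle -/
def c5 : Equiv.Perm (Fin 5) := finRotate 5

theorem c5_pow : c5 ^ 5 = 1 := by decide +kernel
theorem c5_ne : c5 ≠ 1 := by decide +kernel
theorem c5_cent : ∀ σ : Equiv.Perm (Fin 5), σ * c5 = c5 * σ → σ ^ 8 = 1 → σ = 1 := by
  decide +kernel

include C in
/-- elements of order 5 and 8 which commute -/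
theorem exists_58 : ∃ x v : G, orderOf x = 5 ∧ orderOf v = 8 ∧ x * v = v * x := by
  obtain ⟨e⟩ := exists_iso C
  obtain ⟨u, hu⟩ := Order40.exists_orderOf
  have h1 : 40 ∣ orderOf (e u) := by rwa [MulEquiv.orderOf_eq]
  obtain ⟨k, hk⟩ := h1
  have hpos : 0 < orderOf (e u) := orderOf_pos _
  have hk0 : k ≠ 0 := by
    rintro rfl
    omega
  have h2 : orderOf (e u ^ k) = 40 := by
    rw [orderOf_pow_of_dvd hk0 ⟨40, by rw [hk, mul_comm]⟩, hk]
    exact Nat.mul_div_cancel _ (Nat.pos_of_ne_zero hk0)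
  refine ⟨(e u ^ k) ^ 8, (e u ^ k) ^ 5, ?_, ?_, ?_⟩
  · rw [orderOf_pow_of_dvd (by norm_num) (by rw [h2]; norm_num), h2]
  · rw [orderOf_pow_of_dvd (by norm_num) (by rw [h2]; norm_num), h2]
  · rw [← pow_add, ← pow_add]

include C in
/-- the centraliser of an element of order 5 contains an element of order 8 -/
theorem exists_order8 {x : G} (hx : orderOf x = 5) :
    ∃ v : G, orderOf v = 8 ∧ x * v = v * x := by
  have : Fact (Nat.Prime 5) := ⟨by norm_num⟩
  obtain ⟨x', v', hx', hv', hc⟩ := exists_58 C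
  have hns : ¬ 5 ^ 2 ∣ Nat.card G := by rw [card_G C]; norm_num
  obtain ⟨S, hS⟩ := exists_sylow_of_card (K := G) (p := 5) hns (P := Subgroup.zpowers x)
    (by rw [Nat.card_zpowers, hx])
  obtain ⟨S', hS'⟩ := exists_sylow_of_card (K := G) (p := 5) hns (P := Subgroup.zpowers x')
    (by rw [Nat.card_zpowers, hx'])
  obtain ⟨g, hg⟩ := MulAction.exists_smul_eq G S' S
  have h1 : ((g • S' : Sylow 5 G) : Subgroup G) = (S' : Subgroup G).map (MulAut.conj g).toMonoidHom :=
    rfl
  rw [hg, hS, hS'] at h1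
  have h2 : x ∈ (Subgroup.zpowers x').map (MulAut.conj g).toMonoidHom := by
    rw [← h1]
    exact Subgroup.mem_zpowers x
  obtain ⟨_, ⟨k, rfl⟩, h3⟩ := h2
  have h4 : g * x' ^ k * g⁻¹ = x := h3
  refine ⟨g * v' * g⁻¹, ?_, ?_⟩
  · have h5 : g * v' * g⁻¹ = MulAut.conj g v' := rfl
    rw [h5, MulEquiv.orderOf_eq, hv']
  · have h5 : x' ^ k * v' = v' * x' ^ k := (show Commute x' v' from hc).zpow_left k
    rw [← h4]
    calc g * x' ^ k * g⁻¹ * (g * v' * g⁻¹) = g * (x' ^ k * v') * g⁻¹ := by group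
      _ = g * (v' * x' ^ k) * g⁻¹ := by rw [h5]
      _ = _ := by group

/-- **there is no section of `Θ`** -/
theorem no_section (s : Equiv.Perm (Fin 5) × MulAut (D C) →* MM C) (hs : ∀ y, Θ C (s y) = y) :
    False := by
  set x : MM C := s (c5, 1) with hx
  have hx5 : x ^ 5 = 1 := by
    rw [hx, ← map_pow, Prod.pow_mk, c5_pow, one_pow]
    exact map_one s
  have hx1 : x ≠ 1 := by
    intro h
    have h1 := hs (c5, 1)
    rw [← hx, h, map_one] at h1
    exact c5_ne (congrArg Prod.fst h1).symm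
  have : Fact (Nat.Prime 5) := ⟨by norm_num⟩
  have hxo : orderOf x = 5 := orderOf_eq_prime hx5 hx1
  have hP : Nat.card (Subgroup.zpowers x) = 5 := by rw [Nat.card_zpowers, hxo]
  obtain ⟨v, hv8, hvx⟩ := exists_order8 C (x := (x : G)) (by rw [Subgroup.orderOf_coe, hxo])
  -- `v` lies in `M`
  have hvN : v ∈ Subgroup.normalizer
      (((Subgroup.zpowers x).map (MM C).subtype : Subgroup G) : Set G) := by
    apply Subgroup.mem_normalizer_fintype
    rintro _ ⟨_, ⟨k, rfl⟩, rfl⟩
    have h1 : (x : G) ^ k * v = v * (x : G) ^ k := (show Commute (x : G) v from hvx).zpow_left k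
    have h2 : v * ((MM C).subtype (x ^ k)) * v⁻¹ = (MM C).subtype (x ^ k) := by
      show v * (x : G) ^ k * v⁻¹ = (x : G) ^ k
      rw [← h1, mul_inv_cancel_right]
    show v * ((MM C).subtype (x ^ k)) * v⁻¹ ∈ _
    rw [h2]
    exact ⟨_, ⟨k, rfl⟩, rfl⟩
  rw [norm_five_eq C hP] at hvN
  obtain ⟨v', hv', rfl⟩ := hvN
  have hvx' : x * v' = v' * x := Subtype.ext hvx
  have hv8' : v' ^ 8 = 1 := by
    apply Subtype.ext
    have := pow_orderOf_eq_one ((MM C).subtype v')
    rw [hv8] at this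
    exact this
  -- the image of `v`
  have hσ : (Θ C v').1 = 1 := by
    apply c5_cent
    · have h1 := congrArg (Θ C) hvx'
      rw [map_mul, map_mul, hx, hs] at h1
      exact (congrArg Prod.fst h1).symm
    · have h1 := congrArg (Θ C) hv8'
      rw [map_pow, map_one] at h1
      exact congrArg Prod.fst h1
  set f : MulAut (D C) := (Θ C v').2 with hf
  have hΘ : Θ C v' = (1, f) := Prod.ext hσ rfl
  have hf8 : f ^ 8 = 1 := by
    have h1 := congrArg (Θ C) hv8'
    rw [map_pow, map_one, hΘ] at h1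
    exact congrArg Prod.snd h1
  obtain ⟨hf4, hsum⟩ := pow_four C hf8
  set b : MM C := s (1, f) with hb
  have hbx : x * b = b * x := by
    rw [hx, hb, ← map_mul, ← map_mul, Prod.mk_mul_mk, Prod.mk_mul_mk, one_mul, mul_one, mul_one,
      one_mul]
  have hb4 : b ^ 4 = 1 := by
    rw [hb, ← map_pow, Prod.pow_mk, hf4, one_pow]
    exact map_one s
  have hlΘ : Θ C (v' * b⁻¹) = 1 := by
    rw [map_mul, map_inv, hb, hs, hΘ, mul_inv_cancel]
  have hlx : x * (v' * b⁻¹) = v' * b⁻¹ * x := by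
    have c1 : Commute x v' := hvx'
    have c2 : Commute x b := hbx
    exact (c1.mul_right c2.inv_right).eq
  have hlN : v' * b⁻¹ ∈ Subgroup.normalizer ((Subgroup.zpowers x : Subgroup (MM C)) : Set (MM C)) := by
    apply Subgroup.mem_normalizer_fintype
    rintro _ ⟨k, rfl⟩
    have h1 : x ^ k * (v' * b⁻¹) = v' * b⁻¹ * x ^ k :=
      (show Commute x (v' * b⁻¹) from hlx).zpow_left k
    show v' * b⁻¹ * x ^ k * (v' * b⁻¹)⁻¹ ∈ _
    rw [← h1, mul_inv_cancel_right]
    exact ⟨k, rfl⟩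
  have hD := mem_D_of_five C hP hlN hlΘ
  set d : D C := ⟨_, hD⟩ with hd
  -- the action of `b` on `D`
  have hba : ∀ d : D C, (b : G) * d * (b : G)⁻¹ = (f d : D C) := by
    intro d
    have h1 : (Θ C b).2 = f := by rw [hb, hs]
    rw [← h1]
    rfl
  have hvd : (v' : G) = (d : G) * b := by
    show (v' : G) = ((v' * b⁻¹ : MM C) : G) * b
    rw [← Subgroup.coe_mul, inv_mul_cancel_right]
  have hb2 : ∀ d : D C, (b : G) * d = (f d : D C) * b := by
    intro d
    rw [← hba]
    group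
  have hv4 : (v' : G) ^ 4 = 1 := by
    have e2 : ∀ d : D C, (f (f d) : D C) = (f ^ 2) d := fun d => by rw [pow_two]; rfl
    have e3 : ∀ d : D C, (f (f (f d)) : D C) = (f ^ 3) d := fun d => by
      rw [pow_succ, pow_two]; rfl
    have hb4' : (b : G) ^ 4 = 1 := congrArg Subtype.val hb4
    have h5 : (d : G) * (f d : D C) * ((f ^ 2) d : D C) * ((f ^ 3) d : D C) = 1 :=
      congrArg Subtype.val (hsum d)
    rw [← e2, ← e3] at h5
    rw [hvd]
    calc ((d : G) * b) ^ 4 = d * (b * d) * b * (d * b) * (d * b) := by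
          simp only [pow_succ, pow_zero, one_mul, mul_assoc]
      _ = d * ((f d : D C) * b) * b * (d * b) * (d * b) := by rw [hb2]
      _ = d * (f d : D C) * b * (b * d) * b * (d * b) := by group
      _ = d * (f d : D C) * b * ((f d : D C) * b) * b * (d * b) := by rw [hb2]
      _ = d * (f d : D C) * (b * (f d : D C)) * b * b * (d * b) := by group
      _ = d * (f d : D C) * ((f (f d) : D C) * b) * b * b * (d * b) := by rw [hb2]
      _ = d * (f d : D C) * (f (f d) : D C) * b * b * (b * d) * b := by group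
      _ = d * (f d : D C) * (f (f d) : D C) * b * b * ((f d : D C) * b) * b := by rw [hb2]
      _ = d * (f d : D C) * (f (f d) : D C) * b * (b * (f d : D C)) * b * b := by group
      _ = d * (f d : D C) * (f (f d) : D C) * b * ((f (f d) : D C) * b) * b * b := by rw [hb2]
      _ = d * (f d : D C) * (f (f d) : D C) * (b * (f (f d) : D C)) * b * b * b := by group
      _ = d * (f d : D C) * (f (f d) : D C) * ((f (f (f d)) : D C) * b) * b * b * b := by rw [hb2]
      _ = (d * (f d : D C) * (f (f d) : D C) * (f (f (f d)) : D C)) * (b : G) ^ 4 := by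
          simp only [pow_succ, pow_zero, one_mul, mul_assoc]
      _ = 1 := by rw [h5, hb4', one_mul]
  have h6 := orderOf_dvd_of_pow_eq_one hv4
  have h7 : orderOf (v' : G) = 8 := hv8
  rw [h7] at h6
  norm_num at h6

/-- **`L` has no complement in `N_G(L)`** -/
theorem no_complement (K : Subgroup (Subgroup.normalizer (L C : Set G))) :
    ¬ ((L C).subgroupOf (Subgroup.normalizer (L C : Set G))).IsComplement' K := by
  intro hK
  have hinj : ∀ k ∈ K, Θ' C k = 1 → k = 1 := by
    intro k hk h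
    have h1 : k ∈ (L C).subgroupOf (Subgroup.normalizer (L C : Set G)) := by
      rw [← Θ'_ker]
      exact h
    exact Subgroup.disjoint_def.1 hK.disjoint h1 hk
  have hsurj : ∀ y, ∃ k ∈ K, Θ' C k = y := by
    intro y
    obtain ⟨n, hn⟩ := Θ'_surj C y
    obtain ⟨⟨a, k⟩, hak⟩ := hK.2 n
    have h1 : ((a : Subgroup.normalizer (L C : Set G)) * k) = n := hak
    have h2 : Θ' C a = 1 := by
      rw [← MonoidHom.mem_ker, Θ'_ker]
      exact a.2
    refine ⟨k, k.2, ?_⟩
    rw [← hn, ← h1, map_mul, h2, one_mul]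
  choose s hsK hs using hsurj
  let s' : Equiv.Perm (Fin 5) × MulAut (D C) →* MM C :=
    (MulEquiv.subgroupCongr (normalizer_L C)).toMonoidHom.comp
    { toFun := s
      map_one' := hinj _ (hsK 1) (hs 1)
      map_mul' := fun a b => by
        rw [← mul_inv_eq_one]
        apply hinj _ (mul_mem (hsK _) (inv_mem (mul_mem (hsK _) (hsK _))))
        rw [map_mul, map_inv, map_mul, hs, hs, hs, mul_inv_cancel] }
  exact no_section C s' hs

end Cfsg.Agent.H856.TrioX
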